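import Cfsg.Agent.Lib.TwoFusion.SecRank
import Cfsg.Agent.Lib.TwoGroups.QDKlein

/-!
# 2-groups with an `E₁₆` containing a four-group of involutions with small centralizers
-/

set_option autoImplicit false

namespace Cfsg.Agent.Lib.TwoFusion.SelfCentE16

open Cfsg.Agent.Lib.TwoFusion.Conj Cfsg.Agent.Lib.TwoFusion.SecRank
open Cfsg.Agent.Lib.TwoGroups.QD

variable {S : Type*} [Group S]

lemma comm_of_el {T : Subgroup S} (hT : ∀ t ∈ T, t * t = 1) {a b : S} (ha : a ∈ T) (hb : b ∈ T) :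
    a * b = b * a := by
  have h1 := hT _ (T.mul_mem ha hb)
  have ha' : a⁻¹ = a := inv_eq_of_mul_eq_one_right (hT _ ha)
  have hb' : b⁻¹ = b := inv_eq_of_mul_eq_one_right (hT _ hb)
  have hab : (a * b)⁻¹ = a * b := inv_eq_of_mul_eq_one_right h1
  rw [mul_inv_rev, ha', hb'] at hab
  exact hab.symm

/-- Two subgroups with large product of orders intersect nontrivially. -/
lemma exists_ne_one_of_card_lt [Finite S] {X Y T : Subgroup S} (hX : X ≤ T) (hY : Y ≤ T)
    (h : Nat.card T < Nat.card X * Nat.card Y) : ∃ w, w ∈ X ∧ w ∈ Y ∧ w ≠ 1 := by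
  rw [← Nat.card_prod] at h
  have hni : ¬ Function.Injective
      (fun p : X × Y => (⟨(p.1 : S) * p.2, T.mul_mem (hX p.1.2) (hY p.2.2)⟩ : T)) := fun hi =>
    absurd (Nat.card_le_card_of_injective _ hi) (by omega)
  rw [Function.not_injective_iff] at hni
  obtain ⟨⟨⟨x₁, hx₁⟩, ⟨y₁, hy₁⟩⟩, ⟨⟨x₂, hx₂⟩, ⟨y₂, hy₂⟩⟩, heq, hne⟩ := hni
  have heq' : x₁ * y₁ = x₂ * y₂ := congrArg Subtype.val heq
  refine ⟨x₂⁻¹ * x₁, X.mul_mem (X.inv_mem hx₂) hx₁, ?_, ?_⟩
  · have : x₂⁻¹ * x₁ = y₂ * y₁⁻¹ := by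
      rw [inv_mul_eq_iff_eq_mul, ← mul_assoc, ← heq']
      group
    rw [this]
    exact Y.mul_mem hy₂ (Y.inv_mem hy₁)
  · intro h1
    have h2 : x₁ = x₂ := by
      rw [inv_mul_eq_one] at h1
      exact h1.symm
    subst h2
    have h3 : y₁ = y₂ := mul_left_cancel heq'
    subst h3
    exact hne rfl

/-- A subgroup inside the union of two subgroups lies in one of them. -/
lemma le_or_le_of_union {A T T' : Subgroup S} (h : ∀ a ∈ A, a ∈ T ∨ a ∈ T') : A ≤ T ∨ A ≤ T' := by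
  by_contra hc
  push Not at hc
  obtain ⟨h1, h2⟩ := hc
  obtain ⟨a, ha, haT⟩ := SetLike.not_le_iff_exists.1 h1
  obtain ⟨b, hb, hbT⟩ := SetLike.not_le_iff_exists.1 h2
  have haT' := (h a ha).resolve_left haT
  have hbT' := (h b hb).resolve_right hbT
  rcases h (a * b) (A.mul_mem ha hb) with h3 | h3
  · exact haT ((T.mul_mem_cancel_right hbT').1 h3)
  · exact hbT ((T'.mul_mem_cancel_left haT').1 h3)

/-- Invariant hyperplanes: a nontrivial normal subgroup of a finite 2-group has an invariant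
subgroup of index 2. -/
lemma exists_invariant_hyperplane {R : Type*} [Group R] [Finite R] (hR : IsPGroup 2 R)
    (T : Subgroup R) [T.Normal] (hT : T ≠ ⊥) :
    ∃ U : Subgroup R, U ≤ T ∧ 2 * Nat.card U = Nat.card T ∧ ∀ r, ∀ u ∈ U, r * u * r⁻¹ ∈ U := by
  classical
  have hf2 : Fact (Nat.Prime 2) := ⟨Nat.prime_two⟩
  have : Group.IsNilpotent R := hR.isNilpotent
  let J : Subgroup R := ⁅T, (⊤ : Subgroup R)⁆
  have hJT : J ≤ T := Subgroup.commutator_le.2 (fun x hx y _ => by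
    have : x * y * x⁻¹ * y⁻¹ = x * (y * x⁻¹ * y⁻¹) := by group
    rw [commutatorElement_def, this]
    exact T.mul_mem hx (‹T.Normal›.conj_mem _ (T.inv_mem hx) y))
  have hJne : J ≠ T := by
    intro hJ
    have hall : ∀ n : ℕ, T ≤ (⊤ : Subgroup R).lowerCentralSeries n := by
      intro n
      induction n with
      | zero => exact le_top
      | succ n ih =>
        change T ≤ ⁅(⊤ : Subgroup R).lowerCentralSeries n, (⊤ : Subgroup R)⁆
        rw [← hJ]
        exact Subgroup.commutator_mono ih le_rfl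
    obtain ⟨n, hn⟩ := (Subgroup.nilpotent_iff_lowerCentralSeries).1 (inferInstance : Group.IsNilpotent R)
    apply hT
    rw [eq_bot_iff, ← hn]
    exact hall n
  -- quotient of `T` by `J`
  let J₁ : Subgroup T := J.subgroupOf T
  have : J₁.Normal := by
    constructor
    intro n hn g
    rw [Subgroup.mem_subgroupOf] at hn ⊢
    have hJn : (⁅T, (⊤ : Subgroup R)⁆ : Subgroup R).Normal := inferInstance
    exact hJn.conj_mem _ hn g
  have hpQ : IsPGroup 2 (T ⧸ J₁) := by
    have h1 : IsPGroup 2 T := hR.to_subgroup T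
    exact h1.to_quotient J₁
  obtain ⟨k, hk⟩ := IsPGroup.iff_card.1 hpQ
  have hkpos : k ≠ 0 := by
    rintro rfl
    apply hJne
    have h1 : Nat.card (T ⧸ J₁) = 1 := by simpa using hk
    have h2 : J₁ = ⊤ := by
      rw [← Subgroup.index_eq_one]
      exact h1
    apply le_antisymm hJT
    intro t ht
    have h3 : (⟨t, ht⟩ : T) ∈ J₁ := by rw [h2]; trivial
    exact h3
  obtain ⟨L, hL⟩ := Sylow.exists_subgroup_card_pow_prime (G := T ⧸ J₁) 2 (n := k - 1)
    (by
      rw [hk]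
      exact pow_dvd_pow 2 (Nat.sub_le k 1))
  let π := QuotientGroup.mk' J₁
  let U₀ : Subgroup T := L.comap π
  have hJU : J₁ ≤ U₀ := by
    intro n hn
    change π n ∈ L
    rw [show π n = 1 from (QuotientGroup.eq_one_iff n).2 hn]
    exact L.one_mem
  have hcardU₀ : Nat.card U₀ = Nat.card L * Nat.card J₁ := by
    have h1 : U₀.index = L.index := Subgroup.index_comap_of_surjective _ (QuotientGroup.mk'_surjective J₁)
    have h2 := U₀.card_mul_index
    have h3 := L.card_mul_index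
    have h4 := Subgroup.card_eq_card_quotient_mul_card_subgroup J₁
    have hne : L.index ≠ 0 := Subgroup.index_ne_zero_of_finite
    apply Nat.eq_of_mul_eq_mul_right (Nat.pos_of_ne_zero hne)
    rw [← h1, h2, h4, ← h3, h1]
    ring
  refine ⟨U₀.map T.subtype, ?_, ?_, ?_⟩
  · rintro _ ⟨x, _, rfl⟩
    exact x.2
  · rw [Subgroup.card_map_of_injective T.subtype_injective, hcardU₀, hL,
      Subgroup.card_eq_card_quotient_mul_card_subgroup J₁, hk, ← mul_assoc, ← pow_succ']
    congr 2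
    omega
  · rintro r _ ⟨u, hu, rfl⟩
    have hTmem : r * (u : R) * r⁻¹ ∈ T := ‹T.Normal›.conj_mem _ u.2 r
    have hkey : (⟨r * (u : R) * r⁻¹, hTmem⟩ : T) = u * ⟨((u : R)⁻¹) * (r * (u : R) * r⁻¹), T.mul_mem (T.inv_mem u.2) hTmem⟩ := by
      apply Subtype.ext
      simp
    have hJ' : (⟨((u : R)⁻¹) * (r * (u : R) * r⁻¹), T.mul_mem (T.inv_mem u.2) hTmem⟩ : T) ∈ J₁ := by
      rw [Subgroup.mem_subgroupOf]
      change (u : R)⁻¹ * (r * (u : R) * r⁻¹) ∈ J
      have h := Subgroup.commutator_mem_commutator (T.inv_mem u.2) (Subgroup.mem_top r)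
      rw [commutatorElement_def] at h
      have e : (u : R)⁻¹ * (r * (u : R) * r⁻¹) = (u : R)⁻¹ * r * ((u : R)⁻¹)⁻¹ * r⁻¹ := by group
      rw [e]
      exact h
    refine ⟨⟨r * (u : R) * r⁻¹, hTmem⟩, ?_, rfl⟩
    rw [hkey]
    exact U₀.mul_mem hu (hJU hJ')


variable [Finite S]

omit [Finite S] in
lemma rel_ne_zero [Finite S] (A C : Subgroup S) : A.relIndex C ≠ 0 :=
  Subgroup.index_ne_zero_of_finite

lemma card_centralizer_le {t : S} {A : Subgroup S} (h : ∀ y, y * t = t * y → y ∈ A) :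
    Nat.card (Subgroup.centralizer ({t} : Set S)) ≤ Nat.card A :=
  Subgroup.card_le_of_le (fun y hy => h y (Subgroup.mem_centralizer_singleton_iff.1 hy))

/-- The normalizer of `T` is small. -/
theorem relIndex_normalizer_le (hS : IsPGroup 2 S) {T B : Subgroup S} (hT16 : Nat.card T = 16)
    (hBT : B ≤ T) (hB4 : Nat.card B = 4)
    (hgood : ∀ b ∈ B, b ≠ 1 → ∀ y, y * b = b * y → y ∈ T) :
    T.relIndex (Subgroup.normalizer (T : Set S)) ≤ 4 := by
  classical
  set R := Subgroup.normalizer (T : Set S) with hR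
  have hTR : T ≤ R := Subgroup.le_normalizer
  let T₁ : Subgroup R := T.subgroupOf R
  have hT₁n : T₁.Normal := Subgroup.normal_in_normalizer
  have hT₁card : Nat.card T₁ = 16 := by
    rw [← hT16]
    exact Nat.card_congr (Subgroup.subgroupOfEquivOfLe hTR).toEquiv
  have hT₁ne : T₁ ≠ ⊥ := by
    intro h
    rw [h] at hT₁card
    simp at hT₁card
  obtain ⟨U₁, hU₁T, hU₁card, hU₁inv⟩ := exists_invariant_hyperplane (hS.to_subgroup R) T₁ hT₁ne
  let U := U₁.map R.subtype
  have hUcard : Nat.card U = 8 := by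
    rw [Subgroup.card_map_of_injective R.subtype_injective]
    omega
  have hUT : U ≤ T := by
    rintro _ ⟨u, hu, rfl⟩
    exact hU₁T hu
  have hUinv : ∀ r ∈ R, ∀ u ∈ U, r * u * r⁻¹ ∈ U := by
    rintro r hr _ ⟨u, hu, rfl⟩
    exact ⟨⟨r, hr⟩ * u * ⟨r, hr⟩⁻¹, hU₁inv _ _ hu, by simp⟩
  obtain ⟨b, hbB, hbU, hb1⟩ := exists_ne_one_of_card_lt hBT hUT (by rw [hT16, hB4, hUcard]; norm_num)
  have hj : T.relIndex R < 8 := by
    have hle : T.relIndex R ≤ Nat.card {u : U // (u : S) ≠ 1} := by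
      apply relIndex_le_of_fun T R (X := {u : U // (u : S) ≠ 1})
        (fun r => if hr : r ∈ R then ⟨⟨r * b * r⁻¹, hUinv r hr b hbU⟩, by
            intro h
            exact hb1 ((conj_eq_one_iff).1 h)⟩ else ⟨⟨b, hbU⟩, hb1⟩)
      intro r hr r' hr' hf
      simp only [hr, hr', dif_pos, Subtype.mk.injEq] at hf
      apply hgood b hbB hb1
      calc r⁻¹ * r' * b = r⁻¹ * (r' * b * r'⁻¹) * r' := by group
        _ = r⁻¹ * (r * b * r⁻¹) * r' := by rw [hf]
        _ = b * (r⁻¹ * r') := by group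
    have hlt : Nat.card {u : U // (u : S) ≠ 1} < Nat.card U := by
      have := Fintype.ofFinite U
      rw [Nat.card_eq_fintype_card, Nat.card_eq_fintype_card]
      apply Fintype.card_lt_of_injective_of_notMem (Subtype.val) Subtype.val_injective (b := (1 : U))
      rintro ⟨⟨x, hx⟩, rfl⟩
      exact hx rfl
    omega
  obtain ⟨n, hn⟩ := IsPGroup.iff_card.1 (hS.to_subgroup R)
  have hd : T.relIndex R ∣ 2 ^ n := hn ▸ Subgroup.relIndex_dvd_card T R
  obtain ⟨a, _, ha⟩ := (Nat.dvd_prime_pow Nat.prime_two).1 hd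
  rw [ha] at hj ⊢
  have : a < 3 := (Nat.pow_lt_pow_iff_right (by norm_num : 1 < 2)).1 (by simpa using hj)
  interval_cases a <;> norm_num

/-- The bound when `T` is normal. -/
theorem bound_of_normal (hS : IsPGroup 2 S) {T B : Subgroup S} (hT16 : Nat.card T = 16)
    (hBT : B ≤ T) (hB4 : Nat.card B = 4)
    (hgood : ∀ b ∈ B, b ≠ 1 → ∀ y, y * b = b * y → y ∈ T)
    (hN : Subgroup.normalizer (T : Set S) = ⊤) : SecBd 4 S := by
  intro H K hKH hc _
  by_cases hb : ∃ b ∈ H, b ∈ B ∧ b ≠ 1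
  · obtain ⟨b, hbH, hbB, hb1⟩ := hb
    have h16 : Nat.card (Subgroup.centralizer ({b} : Set S)) ≤ 16 :=
      hT16 ▸ card_centralizer_le (hgood b hbB hb1)
    have := card_le_of_centralizer hc hbH h16
    simpa using this
  · push Not at hb
    have hW : Nat.card (T ⊓ H : Subgroup S) ≤ 4 := by
      by_contra hlt
      push Not at hlt
      obtain ⟨w, hw1, hw2, hw3⟩ := exists_ne_one_of_card_lt (X := B) (Y := T ⊓ H) (T := T) hBT inf_le_left
        (by rw [hT16, hB4]; omega)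
      exact hw3 (hb w hw2.2 hw1)
    have hidx := relIndex_normalizer_le hS hT16 hBT hB4 hgood
    rw [hN] at hidx
    have hj : T.relIndex H ≤ 4 :=
      le_trans (Subgroup.relIndex_le_of_le_right le_top (rel_ne_zero _ _)) hidx
    rw [card_eq_relIndex_mul_inf T H]
    have hK1 : 1 ≤ Nat.card K := Nat.card_pos
    calc T.relIndex H * Nat.card (T ⊓ H : Subgroup S) ≤ 4 * 4 := Nat.mul_le_mul hj hW
      _ ≤ 2 ^ 4 * Nat.card K := by omega


lemma el_map_conj {T : Subgroup S} (hT : ∀ t ∈ T, t * t = 1) (g : S) :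
    ∀ t ∈ T.map (MulAut.conj g).toMonoidHom, t * t = 1 := by
  rintro _ ⟨a, ha, rfl⟩
  change g * a * g⁻¹ * (g * a * g⁻¹) = 1
  calc g * a * g⁻¹ * (g * a * g⁻¹) = g * (a * a) * g⁻¹ := by group
    _ = 1 := by rw [hT a ha]; group

lemma mem_normalizer_of_map_le {T : Subgroup S} {g : S}
    (h : T.map (MulAut.conj g).toMonoidHom ≤ T) : g ∈ Subgroup.normalizer (T : Set S) :=
  mem_normalizer_of_conj_mem (fun n hn => h (conj_mem_map_conj hn))

lemma same_map_conj {T : Subgroup S} {r r' : S}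
    (h : T.map (MulAut.conj r).toMonoidHom = T.map (MulAut.conj r').toMonoidHom) :
    r⁻¹ * r' ∈ Subgroup.normalizer (T : Set S) := by
  apply mem_normalizer_of_map_le
  apply le_of_eq
  rw [← map_conj_map_conj, ← h, map_conj_inv_map_conj]

/-- The bound when `T` is not normal. -/
theorem bound_of_not_normal (hS : IsPGroup 2 S) {T B : Subgroup S} (hT16 : Nat.card T = 16)
    (hTel : ∀ t ∈ T, t * t = 1) (hBT : B ≤ T) (hB4 : Nat.card B = 4)
    (hgood : ∀ b ∈ B, b ≠ 1 → ∀ y, y * b = b * y → y ∈ T)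
    (hN : Subgroup.normalizer (T : Set S) ≠ ⊤) : SecBd 4 S := by
  classical
  set N := Subgroup.normalizer (T : Set S) with hNdef
  have hnil : Group.IsNilpotent S := hS.isNilpotent
  have hNlt : N < Subgroup.normalizer (N : Set S) :=
    Group.normalizerCondition_of_isNilpotent N (lt_top_iff_ne_top.2 hN)
  obtain ⟨g, hgM, hgN⟩ := SetLike.exists_of_lt hNlt
  set M := Subgroup.normalizer (N : Set S) with hMdef
  have hTN : T ≤ N := Subgroup.le_normalizer
  have hNM : N ≤ M := Subgroup.le_normalizer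
  have hTNc : ∀ n ∈ N, ∀ t ∈ T, n * t * n⁻¹ ∈ T := fun n hn t ht =>
    (Subgroup.mem_normalizer_iff.1 hn t).1 ht
  have hNMc : ∀ h ∈ M, ∀ n ∈ N, h * n * h⁻¹ ∈ N := fun h hh n hn =>
    (Subgroup.mem_normalizer_iff.1 hh n).1 hn
  set T' := T.map (MulAut.conj g).toMonoidHom with hT'def
  have hT'16 : Nat.card T' = 16 := by rw [hT'def, card_map_conj, hT16]
  have hT'el : ∀ t ∈ T', t * t = 1 := el_map_conj hTel g
  have hT'N : T' ≤ N := by
    rintro _ ⟨a, ha, rfl⟩
    exact hNMc g hgM a (hTN ha)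
  have hginv : g⁻¹ ∈ M := M.inv_mem hgM
  have hT'Nc : ∀ n ∈ N, ∀ t ∈ T', n * t * n⁻¹ ∈ T' := by
    intro n hn t ht
    rw [hT'def, mem_map_conj] at ht ⊢
    have h1 : g⁻¹ * n * g ∈ N := by
      have := hNMc g⁻¹ hginv n hn
      rwa [inv_inv] at this
    have h2 := hTNc _ h1 _ ht
    have e : g⁻¹ * (n * t * n⁻¹) * g = g⁻¹ * n * g * (g⁻¹ * t * g) * (g⁻¹ * n * g)⁻¹ := by group
    rw [e]
    exact h2
  have hneq : T' ≠ T := by
    intro h
    apply hgN
    exact mem_normalizer_of_map_le (le_of_eq h)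
  have hT'leT : ¬ T' ≤ T := fun h =>
    hneq (Subgroup.eq_of_le_of_card_ge h (by rw [hT16, hT'16]))
  have hZB : ∀ w ∈ T', w ∈ B → w = 1 := by
    intro w hw hwB
    by_contra hw1
    exact hT'leT (fun y hy => hgood w hwB hw1 y (comm_of_el hT'el hy hw))
  -- `N = B T'`
  have hidx4 := relIndex_normalizer_le hS hT16 hBT hB4 hgood
  rw [← hNdef] at hidx4
  have hN64 : Nat.card N ≤ 64 := by
    rw [card_eq_relIndex_mul hTN, hT16]
    omega
  let F : B × T' → N := fun p => ⟨(p.1 : S) * p.2, N.mul_mem (hTN (hBT p.1.2)) (hT'N p.2.2)⟩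
  have hFinj : Function.Injective F := by
    rintro ⟨⟨b₁, hb₁⟩, ⟨t₁, ht₁⟩⟩ ⟨⟨b₂, hb₂⟩, ⟨t₂, ht₂⟩⟩ h
    have h' : b₁ * t₁ = b₂ * t₂ := congrArg Subtype.val h
    have h3 : b₂⁻¹ * b₁ = t₂ * t₁⁻¹ := by
      rw [inv_mul_eq_iff_eq_mul, ← mul_assoc, ← h']
      group
    have h4 : t₂ * t₁⁻¹ = 1 := hZB _ (T'.mul_mem ht₂ (T'.inv_mem ht₁))
      (h3 ▸ B.mul_mem (B.inv_mem hb₂) hb₁)
    have h5 : t₂ = t₁ := mul_inv_eq_one.1 h4
    subst h5
    have h6 : b₁ = b₂ := mul_right_cancel h'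
    subst h6
    rfl
  have hcardprod : Nat.card (B × T') = 64 := by
    rw [Nat.card_prod, hB4, hT'16]
  have hN64' : Nat.card N = 64 := by
    apply le_antisymm hN64
    rw [← hcardprod]
    exact Nat.card_le_card_of_injective F hFinj
  have hFbij := (Nat.bijective_iff_injective_and_card F).2 ⟨hFinj, by rw [hcardprod, hN64']⟩
  have hprod : ∀ n ∈ N, ∃ b ∈ B, ∃ t ∈ T', n = b * t := by
    intro n hn
    obtain ⟨⟨⟨b, hb⟩, ⟨t, ht⟩⟩, hp⟩ := hFbij.2 ⟨n, hn⟩
    exact ⟨b, hb, t, ht, (congrArg Subtype.val hp).symm⟩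
  set Z := T ⊓ T' with hZdef
  have hTdec : ∀ t ∈ T, ∃ b ∈ B, ∃ z ∈ Z, t = b * z := by
    intro t ht
    obtain ⟨b, hb, t', ht', rfl⟩ := hprod t (hTN ht)
    refine ⟨b, hb, t', ⟨?_, ht'⟩, rfl⟩
    exact (T.mul_mem_cancel_left (hBT hb)).1 ht
  have hZcard : Nat.card Z = 4 := by
    apply le_antisymm
    · by_contra hlt
      push Not at hlt
      obtain ⟨w, hw1, hw2, hw3⟩ := exists_ne_one_of_card_lt (X := B) (Y := Z) (T := T) hBT inf_le_left
        (by rw [hT16, hB4]; omega)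
      exact hw3 (hZB w hw2.2 hw1)
    · have hsurj : Function.Surjective
          (fun p : B × Z => (⟨(p.1 : S) * p.2, T.mul_mem (hBT p.1.2) p.2.2.1⟩ : T)) := by
        rintro ⟨t, ht⟩
        obtain ⟨b, hb, z, hz, rfl⟩ := hTdec t ht
        exact ⟨(⟨b, hb⟩, ⟨z, hz⟩), rfl⟩
      have h1 := Nat.card_le_card_of_surjective _ hsurj
      rw [Nat.card_prod, hT16, hB4] at h1
      omega
  have hZT' : Z ≤ T' := inf_le_right
  have hZT : Z ≤ T := inf_le_left
  -- commutators
  have hcomm1 : ∀ b ∈ T, ∀ t ∈ T', t * b * t⁻¹ * b⁻¹ ∈ Z := by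
    intro b hb t ht
    refine ⟨T.mul_mem (hTNc t (hT'N ht) b hb) (T.inv_mem hb), ?_⟩
    have e : t * b * t⁻¹ * b⁻¹ = t * (b * t⁻¹ * b⁻¹) := by group
    rw [e]
    exact T'.mul_mem ht (hT'Nc b (hTN hb) _ (T'.inv_mem ht))
  -- surjectivity of commutation
  have hsurj : ∀ b ∈ B, b ≠ 1 → ∀ z ∈ Z, ∃ t ∈ T', t * b * t⁻¹ * b⁻¹ = z := by
    intro b hb hb1 z hz
    have hbT := hBT hb
    let φ : T' →* Z :=
      { toFun := fun t => ⟨(t : S) * b * (t : S)⁻¹ * b⁻¹, hcomm1 b hbT t t.2⟩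
        map_one' := by
          apply Subtype.ext
          simp
        map_mul' := by
          rintro ⟨x, hx⟩ ⟨y, hy⟩
          apply Subtype.ext
          change x * y * b * (x * y)⁻¹ * b⁻¹ = (x * b * x⁻¹ * b⁻¹) * (y * b * y⁻¹ * b⁻¹)
          have h1 := hcomm1 b hbT y hy
          have h2 := hcomm1 b hbT x hx
          have h3 : x * (y * b * y⁻¹ * b⁻¹) = (y * b * y⁻¹ * b⁻¹) * x := comm_of_el hT'el hx (hZT' h1)
          have h4 : (x * b * x⁻¹ * b⁻¹) * (y * b * y⁻¹ * b⁻¹) = (y * b * y⁻¹ * b⁻¹) * (x * b * x⁻¹ * b⁻¹) :=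
            comm_of_el hTel (hZT h2) (hZT h1)
          rw [h4]
          calc x * y * b * (x * y)⁻¹ * b⁻¹ = x * (y * b * y⁻¹ * b⁻¹) * (b * x⁻¹ * b⁻¹) := by group
            _ = (y * b * y⁻¹ * b⁻¹) * x * (b * x⁻¹ * b⁻¹) := by rw [h3]
            _ = _ := by group }
    have hker : Nat.card φ.ker ≤ 4 := by
      rw [← hZcard]
      apply Nat.card_le_card_of_injective
        (fun t : φ.ker => (⟨((t : T') : S), ⟨?_, (t : T').2⟩⟩ : Z))
      · intro x y hxy
        have h' : ((x : T') : S) = ((y : T') : S) := congrArg (fun w : Z => (w : S)) hxy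
        exact Subtype.ext (Subtype.ext h')
      · have h1 : φ (t : T') = 1 := t.2
        have h2 : ((t : T') : S) * b * ((t : T') : S)⁻¹ * b⁻¹ = 1 := congrArg Subtype.val h1
        apply hgood b hb hb1
        have h3 : ((t : T') : S) * b * ((t : T') : S)⁻¹ = b := mul_inv_eq_one.1 h2
        exact mul_inv_eq_iff_eq_mul.1 h3
    have hr : Nat.card φ.range = 4 := by
      have h1 := φ.ker.card_mul_index
      rw [Subgroup.index_ker, hT'16] at h1
      have h2 : Nat.card φ.range ≤ 4 := by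
        rw [← hZcard]
        exact Subgroup.card_le_card_group _
      by_contra hne
      have h3 : Nat.card φ.range ≤ 3 := by omega
      have h4 := Nat.mul_le_mul hker h3
      omega
    have htop : φ.range = ⊤ := Subgroup.eq_top_of_card_eq _ (by rw [hr, hZcard])
    have hzr : (⟨z, hz⟩ : Z) ∈ φ.range := by rw [htop]; trivial
    obtain ⟨t, ht⟩ := hzr
    exact ⟨t, t.2, congrArg Subtype.val ht⟩
  have hgood1 : ∀ t ∈ T, t ∉ Z → ∀ y, y * t = t * y → y ∈ T := by
    intro t ht htZ y hy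
    obtain ⟨b, hb, z, hz, rfl⟩ := hTdec t ht
    have hb1 : b ≠ 1 := by
      rintro rfl
      rw [one_mul] at htZ
      exact htZ hz
    obtain ⟨s, hs, hsz⟩ := hsurj b hb hb1 z hz
    have hbz : z * b = b * z := comm_of_el hTel (hZT hz) (hBT hb)
    have hsb : s * b * s⁻¹ = b * z := by
      rw [← hbz, ← hsz]
      group
    rw [← hsb] at hy
    have h1 : s⁻¹ * y * s ∈ T := by
      apply hgood b hb hb1
      calc s⁻¹ * y * s * b = s⁻¹ * (y * (s * b * s⁻¹)) * s := by group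
        _ = s⁻¹ * ((s * b * s⁻¹) * y) * s := by rw [hy]
        _ = b * (s⁻¹ * y * s) := by group
    have h2 := hTNc s (hT'N hs) _ h1
    have e : s * (s⁻¹ * y * s) * s⁻¹ = y := by group
    rwa [e] at h2
  have hinvol : ∀ x ∈ N, x * x = 1 → x ∈ T ∨ x ∈ T' := by
    intro x hx hxx
    obtain ⟨b, hb, t, ht, rfl⟩ := hprod x hx
    by_cases hb1 : b = 1
    · right
      rw [hb1, one_mul]
      exact ht
    · left
      have hb' : b⁻¹ = b := inv_eq_of_mul_eq_one_right (hTel _ (hBT hb))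
      have ht' : t⁻¹ = t := inv_eq_of_mul_eq_one_right (hT'el _ ht)
      have h1 : (b * t)⁻¹ = b * t := inv_eq_of_mul_eq_one_right hxx
      rw [mul_inv_rev, hb', ht'] at h1
      have h2 : t ∈ T := hgood b hb hb1 t h1
      exact T.mul_mem (hBT hb) h2
  have hsub : ∀ A : Subgroup S, A ≤ N → (∀ a ∈ A, a * a = 1) → A ≤ T ∨ A ≤ T' := by
    intro A hA hel
    exact le_or_le_of_union (fun a ha => hinvol a (hA ha) (hel a ha))
  have heq16 : ∀ A : Subgroup S, A ≤ N → (∀ a ∈ A, a * a = 1) → Nat.card A = 16 → A = T ∨ A = T' := by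
    intro A hA hel hc
    rcases hsub A hA hel with h | h
    · exact Or.inl (Subgroup.eq_of_le_of_card_ge h (by rw [hT16, hc]))
    · exact Or.inr (Subgroup.eq_of_le_of_card_ge h (by rw [hT'16, hc]))
  have hswap : T'.map (MulAut.conj g).toMonoidHom = T := by
    have hle : T'.map (MulAut.conj g).toMonoidHom ≤ N := by
      rintro _ ⟨a, ha, rfl⟩
      exact hNMc g hgM a (hT'N ha)
    rcases heq16 _ hle (el_map_conj hT'el g) (by rw [card_map_conj, hT'16]) with h | h
    · exact h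
    · exfalso
      have h1 : T'.map (MulAut.conj g).toMonoidHom = T.map (MulAut.conj g).toMonoidHom := h
      exact hneq (Subgroup.map_injective (MulAut.conj g).injective h1)
  have hg1 : ∀ t ∈ T', g * t * g⁻¹ ∈ T := by
    intro t ht
    rw [← hswap]
    exact conj_mem_map_conj ht
  have hg2 : ∀ t ∈ T, g⁻¹ * t * g ∈ T' := by
    intro t ht
    rw [← hswap, mem_map_conj] at ht
    exact ht
  have hg3 : ∀ t ∈ T', g⁻¹ * t * g ∈ T := by
    intro t ht
    rw [hT'def, mem_map_conj] at ht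
    exact ht
  have hgood2 : ∀ t ∈ T', t ∉ Z → ∀ y, y * t = t * y → y ∈ T' := by
    intro t ht htZ y hy
    have hs := hg1 t ht
    have hsZ : g * t * g⁻¹ ∉ Z := by
      intro h
      apply htZ
      have h2 := hg3 _ h.2
      have e : g⁻¹ * (g * t * g⁻¹) * g = t := by group
      rw [e] at h2
      exact ⟨h2, ht⟩
    have h1 : g * y * g⁻¹ ∈ T := by
      apply hgood1 _ hs hsZ
      calc g * y * g⁻¹ * (g * t * g⁻¹) = g * (y * t) * g⁻¹ := by group
        _ = g * (t * y) * g⁻¹ := by rw [hy]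
        _ = g * t * g⁻¹ * (g * y * g⁻¹) := by group
    have h2 := hg2 _ h1
    have e : g⁻¹ * (g * y * g⁻¹) * g = y := by group
    rwa [e] at h2
  have hMcases : ∀ h ∈ M, h ∈ N ∨ T.map (MulAut.conj h).toMonoidHom = T' := by
    intro h hh
    have hle : T.map (MulAut.conj h).toMonoidHom ≤ N := by
      rintro _ ⟨a, ha, rfl⟩
      exact hNMc h hh a (hTN ha)
    rcases heq16 _ hle (el_map_conj hTel h) (by rw [card_map_conj, hT16]) with h1 | h1
    · exact Or.inl (mem_normalizer_of_map_le (le_of_eq h1))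
    · exact Or.inr h1
  have hidx2 : N.relIndex M ≤ 2 := by
    have := relIndex_le_of_fun N M (X := Bool) (fun h => decide (h ∈ N)) (by
      intro r hr r' hr' hf
      rcases hMcases r hr with h1 | h1 <;> rcases hMcases r' hr' with h2 | h2
      · exact N.mul_mem (N.inv_mem h1) h2
      · by_cases h3 : r' ∈ N
        · exact N.mul_mem (N.inv_mem h1) h3
        · simp [h1, h3] at hf
      · by_cases h3 : r ∈ N
        · exact N.mul_mem (N.inv_mem h3) h2
        · simp [h2, h3] at hf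
      · exact same_map_conj (h1.trans h2.symm))
    simpa using this
  have hMtop : M = ⊤ := by
    by_contra hne
    have hMlt : M < Subgroup.normalizer (M : Set S) :=
      Group.normalizerCondition_of_isNilpotent M (lt_top_iff_ne_top.2 hne)
    obtain ⟨h, hhM, hhnot⟩ := SetLike.exists_of_lt hMlt
    set T₁ := T.map (MulAut.conj h).toMonoidHom with hT₁def
    have hT₁M : T₁ ≤ M := by
      rintro _ ⟨a, ha, rfl⟩
      exact (Subgroup.mem_normalizer_iff.1 hhM a).1 (hNM (hTN ha))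
    have hT₁16 : Nat.card T₁ = 16 := by rw [hT₁def, card_map_conj, hT16]
    have hT₁el : ∀ t ∈ T₁, t * t = 1 := el_map_conj hTel h
    have hne1 : ¬ T₁ ≤ T := fun hle =>
      hhnot (hNM (mem_normalizer_of_map_le hle))
    have hne2 : ¬ T₁ ≤ T' := fun hle => by
      have h1 : T₁ = T' := Subgroup.eq_of_le_of_card_ge hle (by rw [hT₁16, hT'16])
      have h2 : g⁻¹ * h ∈ N := same_map_conj h1.symm
      apply hhnot
      have h3 : h = g * (g⁻¹ * h) := by group
      rw [h3]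
      exact M.mul_mem hgM (hNM h2)
    have hA8 : 8 ≤ Nat.card (N ⊓ T₁ : Subgroup S) := by
      have h1 := card_eq_relIndex_mul_inf N T₁
      have h2 : N.relIndex T₁ ≤ 2 :=
        le_trans (Subgroup.relIndex_le_of_le_right hT₁M (rel_ne_zero _ _)) hidx2
      have h3 := Nat.mul_le_mul_right (Nat.card (N ⊓ T₁ : Subgroup S)) h2
      omega
    have hAel : ∀ a ∈ (N ⊓ T₁ : Subgroup S), a * a = 1 := fun a ha => hT₁el a ha.2
    have hex : ∃ a ∈ (N ⊓ T₁ : Subgroup S), a ∉ Z := by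
      by_contra hall
      push Not at hall
      have := Subgroup.card_le_of_le (show (N ⊓ T₁ : Subgroup S) ≤ Z from hall)
      omega
    obtain ⟨a, ha, haZ⟩ := hex
    rcases hsub _ inf_le_left hAel with h1 | h1
    · exact hne1 (fun y hy => hgood1 a (h1 ha) haZ y (comm_of_el hT₁el hy ha.2))
    · exact hne2 (fun y hy => hgood2 a (h1 ha) haZ y (comm_of_el hT₁el hy ha.2))
  have hidx : ∀ H : Subgroup S, N.relIndex H ≤ 2 := by
    intro H
    refine le_trans (Subgroup.relIndex_le_of_le_right ?_ (rel_ne_zero _ _)) hidx2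
    rw [hMtop]
    exact le_top
  -- the bound
  intro H K hKH hc hs
  have hK1 : 1 ≤ Nat.card K := Nat.card_pos
  by_cases h1 : ∃ t ∈ H, t ∈ T ∧ t ∉ Z
  · obtain ⟨t, htH, htT, htZ⟩ := h1
    have h16 : Nat.card (Subgroup.centralizer ({t} : Set S)) ≤ 16 :=
      hT16 ▸ card_centralizer_le (hgood1 t htT htZ)
    have := card_le_of_centralizer hc htH h16
    simpa using this
  by_cases h2 : ∃ t ∈ H, t ∈ T' ∧ t ∉ Z
  · obtain ⟨t, htH, htT, htZ⟩ := h2
    have h16 : Nat.card (Subgroup.centralizer ({t} : Set S)) ≤ 16 :=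
      hT'16 ▸ card_centralizer_le (hgood2 t htT htZ)
    have := card_le_of_centralizer hc htH h16
    simpa using this
  push Not at h1 h2
  have hHN := card_eq_relIndex_mul_inf N H
  have hH₀ := card_eq_relIndex_mul_inf T (N ⊓ H)
  have hj1 := hidx H
  have hj2 : T.relIndex (N ⊓ H) ≤ 4 :=
    le_trans (Subgroup.relIndex_le_of_le_right inf_le_left (rel_ne_zero _ _)) hidx4
  have hj3 : Nat.card (T ⊓ (N ⊓ H) : Subgroup S) ≤ 4 := by
    rw [← hZcard]
    apply Subgroup.card_le_of_le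
    intro x hx
    exact h1 x hx.2.2 hx.1
  have hj4 : Nat.card (N ⊓ H : Subgroup S) ≤ 16 := by
    rw [hH₀]
    exact le_trans (Nat.mul_le_mul hj2 hj3) (by norm_num)
  by_cases hK : K = ⊥
  · have hall : (N ⊓ H : Subgroup S) ≤ Z := by
      intro x hx
      have hxx : x * x = 1 := by
        have := hs x hx.2
        rw [hK] at this
        simpa using this
      rcases hinvol x hx.1 hxx with h3 | h3
      · exact h1 x hx.2 h3
      · exact h2 x hx.2 h3
    have h5 : Nat.card (N ⊓ H : Subgroup S) ≤ 4 := by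
      rw [← hZcard]
      exact Subgroup.card_le_of_le hall
    rw [hHN]
    calc N.relIndex H * Nat.card (N ⊓ H : Subgroup S) ≤ 2 * 4 := Nat.mul_le_mul hj1 h5
      _ ≤ 2 ^ 4 * Nat.card K := by omega
  · have hK2 : 1 < Nat.card K := Subgroup.one_lt_card_iff_ne_bot K |>.2 hK
    rw [hHN]
    calc N.relIndex H * Nat.card (N ⊓ H : Subgroup S) ≤ 2 * 16 := Nat.mul_le_mul hj1 hj4
      _ ≤ 2 ^ 4 * Nat.card K := by omega

/-- Theorem A. -/
theorem secBd_of_selfCent (hS : IsPGroup 2 S) {T B : Subgroup S} (hT16 : Nat.card T = 16)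
    (hTel : ∀ t ∈ T, t * t = 1) (hBT : B ≤ T) (hB4 : Nat.card B = 4)
    (hgood : ∀ b ∈ B, b ≠ 1 → ∀ y, y * b = b * y → y ∈ T) : SecBd 4 S := by
  by_cases hN : Subgroup.normalizer (T : Set S) = ⊤
  · exact bound_of_normal hS hT16 hBT hB4 hgood hN
  · exact bound_of_not_normal hS hT16 hTel hBT hB4 hgood hN

end Cfsg.Agent.Lib.TwoFusion.SelfCentE16
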