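import Cfsg.Agent.S0215
import Cfsg.Agent.Lib.TwoFusion.GoodAut
import Cfsg.Agent.Lib.TwoFusion.IndexTwo
import Cfsg.Agent.Lib.TwoGroups.Present
import Cfsg.Agent.Lib.PGroups.Basic

/-!
# An involution whose centraliser is a Sylow `2`-subgroup with Frattini subgroup of order two
-/

set_option autoImplicit false
set_option linter.unusedSectionVars false
set_option linter.style.haveILetI false

namespace Cfsg.Agent.Lib.TwoFusion.PhiZ

open Subgroup Cfsg

variable {L : Type*} [Group L]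

/-- The centraliser `R` of the involution `z`, with `R / ⟨z⟩` elementary abelian. -/
structure CZ (z : L) (R : Subgroup L) : Prop where
  zz : z * z = 1
  ne : z ≠ 1
  eq : ∀ r, r ∈ R ↔ r * z = z * r
  sq : ∀ r ∈ R, r * r = 1 ∨ r * r = z
  comm : ∀ r ∈ R, ∀ s ∈ R, r * s * r⁻¹ * s⁻¹ = 1 ∨ r * s * r⁻¹ * s⁻¹ = z

/-- An elementary abelian subgroup `D` of index two of `R`, acted on by a transvection `a`. -/
structure Tv (z : L) (R D : Subgroup L) (a d₀ : L) : Prop where
  cz : CZ z R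
  le : D ≤ R
  el : ∀ d ∈ D, d * d = 1
  zD : z ∈ D
  aR : a ∈ R
  aD : a ∉ D
  cos : ∀ r ∈ R, r ∈ D ∨ a⁻¹ * r ∈ D
  d₀D : d₀ ∈ D
  move : a * d₀ * a⁻¹ = d₀ * z

namespace Tv

variable {z : L} {R D : Subgroup L} {a d₀ : L} (h : Tv z R D a d₀)
include h

lemma inv_D {d : L} (hd : d ∈ D) : d⁻¹ = d :=
  inv_eq_of_mul_eq_one_left (h.el d hd)

lemma comm_D {d e : L} (hd : d ∈ D) (he : e ∈ D) : d * e = e * d := by
  have h1 := h.el _ (D.mul_mem hd he)
  have h2 := inv_eq_of_mul_eq_one_left h1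
  rw [mul_inv_rev, h.inv_D hd, h.inv_D he] at h2
  exact h2.symm

lemma conj_mem {r d : L} (hr : r ∈ R) (hd : d ∈ D) : r * d * r⁻¹ ∈ D := by
  rcases h.cz.comm r hr d (h.le hd) with h1 | h1
  · rw [mul_inv_eq_one] at h1
    rw [h1]
    exact hd
  · have h2 : r * d * r⁻¹ = z * d := by
      rw [← h1]
      group
    rw [h2]
    exact D.mul_mem h.zD hd

lemma R_le_normalizer : R ≤ normalizer (D : Set L) := by
  intro r hr
  rw [mem_normalizer_iff]
  intro d
  refine ⟨fun hd => h.conj_mem hr hd, fun hd => ?_⟩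
  have h1 := h.conj_mem (R.inv_mem hr) hd
  have e : r⁻¹ * (r * d * r⁻¹) * r⁻¹⁻¹ = d := by group
  rwa [e] at h1

lemma conj_D {n d : L} (hn : n ∈ normalizer (D : Set L)) (hd : d ∈ D) : n * d * n⁻¹ ∈ D :=
  (mem_normalizer_iff.1 hn d).1 hd

lemma conj_D' {n d : L} (hn : n ∈ normalizer (D : Set L)) (hd : n * d * n⁻¹ ∈ D) : d ∈ D :=
  (mem_normalizer_iff.1 hn d).2 hd

/-- The element `a` acts on `D` as a transvection, with centre `z`: conjugates. -/
lemma act {n d : L} (hn : n ∈ normalizer (D : Set L)) (hd : d ∈ D) :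
    (n * a * n⁻¹) * d * (n * a * n⁻¹)⁻¹ = d ∨
      (n * a * n⁻¹) * d * (n * a * n⁻¹)⁻¹ = d * (n * z * n⁻¹) := by
  set e : L := n⁻¹ * d * n with he
  have heD : e ∈ D := by
    have := h.conj_D ((normalizer (D : Set L)).inv_mem hn) hd
    simpa [he] using this
  have e1 : (n * a * n⁻¹) * d * (n * a * n⁻¹)⁻¹ = n * (a * e * a⁻¹) * n⁻¹ := by
    rw [he]; group
  have e2 : d = n * e * n⁻¹ := by
    rw [he]; group
  rcases h.cz.comm a h.aR e (h.le heD) with h1 | h1
  · left
    rw [mul_inv_eq_one] at h1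
    rw [e1, h1, ← e2]
  · right
    have h2 : a * e * a⁻¹ = z * e := by
      rw [← h1]
      group
    rw [e1, h2]
    have e3 : n * (z * e) * n⁻¹ = (n * z * n⁻¹) * (n * e * n⁻¹) := by group
    rw [e3, ← e2]
    exact h.comm_D (h.conj_D hn h.zD) hd

lemma move_conj {n : L} :
    (n * a * n⁻¹) * (n * d₀ * n⁻¹) * (n * a * n⁻¹)⁻¹ = (n * d₀ * n⁻¹) * (n * z * n⁻¹) := by
  have e1 : (n * a * n⁻¹) * (n * d₀ * n⁻¹) * (n * a * n⁻¹)⁻¹ = n * (a * d₀ * a⁻¹) * n⁻¹ := by group
  rw [e1, h.move]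
  group

lemma conj_z_ne {n : L} : n * z * n⁻¹ ≠ 1 := by
  intro h1
  apply h.cz.ne
  have e : z = n⁻¹ * (n * z * n⁻¹) * n := by group
  rw [e, h1]
  group

/-- If the transvection of `n` fixes the centre of `m`, the two centres agree. -/
lemma centre_eq {n m : L} (hn : n ∈ normalizer (D : Set L)) (hm : m ∈ normalizer (D : Set L))
    (hfix : (n * a * n⁻¹) * (m * z * m⁻¹) * (n * a * n⁻¹)⁻¹ = m * z * m⁻¹) :
    n * z * n⁻¹ = m * z * m⁻¹ := by
  have hN := normalizer (D : Set L)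
  set b : L := n * a * n⁻¹ with hb
  have haN : a ∈ normalizer (D : Set L) := h.R_le_normalizer h.aR
  have hbN : b ∈ normalizer (D : Set L) :=
    mul_mem (mul_mem hn haN) (inv_mem hn)
  set c : L := m⁻¹ * b * m with hc
  have hcN : c ∈ normalizer (D : Set L) := mul_mem (mul_mem (inv_mem hm) hbN) hm
  have hcR : c ∈ R := by
    rw [h.cz.eq]
    have e1 : b = m * c * m⁻¹ := by rw [hc]; group
    rw [e1] at hfix
    have e2 : m * c * m⁻¹ * (m * z * m⁻¹) * (m * c * m⁻¹)⁻¹ = m * (c * z * c⁻¹) * m⁻¹ := by group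
    rw [e2] at hfix
    have h3 : c * z * c⁻¹ = z := by
      have := congrArg (fun x => m⁻¹ * x * m) hfix
      simpa [mul_assoc] using this
    rw [mul_inv_eq_iff_eq_mul] at h3
    exact h3
  have hcD : c ∉ D := by
    intro hcD
    apply h.aD
    have h1 : b ∈ D := by
      have := h.conj_D hm hcD
      have e1 : m * c * m⁻¹ = b := by rw [hc]; group
      rwa [e1] at this
    have h2 : n⁻¹ * b * n⁻¹⁻¹ ∈ D := h.conj_D (inv_mem hn) h1
    have e2 : n⁻¹ * b * n⁻¹⁻¹ = a := by rw [hb]; group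
    rwa [e2] at h2
  obtain ⟨e, he⟩ : ∃ e, e ∈ D ∧ c = a * e := by
    rcases h.cos c hcR with h1 | h1
    · exact absurd h1 hcD
    · exact ⟨_, h1, by group⟩
  obtain ⟨heD, hce⟩ := he
  have hb' : b = (m * a * m⁻¹) * (m * e * m⁻¹) := by
    have e1 : b = m * c * m⁻¹ := by rw [hc]; group
    rw [e1, hce]
    group
  have he'D : m * e * m⁻¹ ∈ D := h.conj_D hm heD
  set d : L := n * d₀ * n⁻¹ with hd
  have hdD : d ∈ D := h.conj_D hn h.d₀D
  have h1 : b * d * b⁻¹ = d * (n * z * n⁻¹) := h.move_conj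
  have h2 : b * d * b⁻¹ = (m * a * m⁻¹) * d * (m * a * m⁻¹)⁻¹ := by
    rw [hb']
    have e2 : (m * a * m⁻¹) * (m * e * m⁻¹) * d * ((m * a * m⁻¹) * (m * e * m⁻¹))⁻¹ =
        (m * a * m⁻¹) * ((m * e * m⁻¹) * d * (m * e * m⁻¹)⁻¹) * (m * a * m⁻¹)⁻¹ := by group
    rw [e2, h.comm_D he'D hdD, mul_inv_cancel_right]
  rcases h.act hm hdD with h3 | h3
  · exfalso
    rw [h2, h3] at h1
    have h4 : n * z * n⁻¹ = 1 := by
      have := h1.symm
      simpa using this
    exact h.conj_z_ne h4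
  · rw [h2, h3] at h1
    exact (mul_left_cancel h1).symm

/-- Distinct centres: the transvection moves the other centre. -/
lemma centre_move {n m : L} (hn : n ∈ normalizer (D : Set L)) (hm : m ∈ normalizer (D : Set L))
    (hne : n * z * n⁻¹ ≠ m * z * m⁻¹) :
    (n * a * n⁻¹) * (m * z * m⁻¹) * (n * a * n⁻¹)⁻¹ = (m * z * m⁻¹) * (n * z * n⁻¹) := by
  rcases h.act hn (h.conj_D hm h.zD) with h1 | h1
  · exact absurd (h.centre_eq hn hm h1) hne
  · exact h1

/-- Products of distinct centres are centres. -/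
lemma centre_mul {n m : L} (hn : n ∈ normalizer (D : Set L)) (hm : m ∈ normalizer (D : Set L))
    (hne : n * z * n⁻¹ ≠ m * z * m⁻¹) :
    ∃ k ∈ normalizer (D : Set L), k * z * k⁻¹ = (m * z * m⁻¹) * (n * z * n⁻¹) := by
  have haN : a ∈ normalizer (D : Set L) := h.R_le_normalizer h.aR
  refine ⟨(n * a * n⁻¹) * m, mul_mem (mul_mem (mul_mem hn haN) (inv_mem hn)) hm, ?_⟩
  rw [← h.centre_move hn hm hne]
  group

lemma centre_sq {n : L} : (n * z * n⁻¹) * (n * z * n⁻¹) = 1 := by
  have e : (n * z * n⁻¹) * (n * z * n⁻¹) = n * (z * z) * n⁻¹ := by group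
  rw [e, h.cz.zz]
  group

/-- There are at most three centres. -/
lemma centre_three {n₁ n₂ n₃ : L} (h₁ : n₁ ∈ normalizer (D : Set L))
    (h₂ : n₂ ∈ normalizer (D : Set L)) (h₃ : n₃ ∈ normalizer (D : Set L))
    (h12 : n₁ * z * n₁⁻¹ ≠ n₂ * z * n₂⁻¹) :
    n₃ * z * n₃⁻¹ = n₁ * z * n₁⁻¹ ∨ n₃ * z * n₃⁻¹ = n₂ * z * n₂⁻¹ ∨
      n₃ * z * n₃⁻¹ = (n₁ * z * n₁⁻¹) * (n₂ * z * n₂⁻¹) := by
  by_contra hcon
  push Not at hcon
  obtain ⟨h31, h32, h3w⟩ := hcon
  obtain ⟨k, hk, hke⟩ := h.centre_mul h₂ h₁ h12.symm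
  set z₁ := n₁ * z * n₁⁻¹ with hz₁
  set z₂ := n₂ * z * n₂⁻¹ with hz₂
  set z₃ := n₃ * z * n₃⁻¹ with hz₃
  have hz₁D : z₁ ∈ D := h.conj_D h₁ h.zD
  have hz₂D : z₂ ∈ D := h.conj_D h₂ h.zD
  have hz₃D : z₃ ∈ D := h.conj_D h₃ h.zD
  have m1 := h.centre_move h₃ h₁ h31
  have m2 := h.centre_move h₃ h₂ h32
  have m3 := h.centre_move h₃ hk (by rw [hke]; exact h3w)
  rw [hke] at m3
  set b := n₃ * a * n₃⁻¹ with hb
  have e : b * (z₁ * z₂) * b⁻¹ = (b * z₁ * b⁻¹) * (b * z₂ * b⁻¹) := by group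
  rw [e, m1, m2] at m3
  have e2 : z₁ * z₃ * (z₂ * z₃) = z₁ * z₂ * (z₃ * z₃) := by
    have h5 := h.comm_D hz₃D hz₂D
    calc z₁ * z₃ * (z₂ * z₃) = z₁ * (z₃ * z₂) * z₃ := by group
      _ = z₁ * (z₂ * z₃) * z₃ := by rw [h5]
      _ = z₁ * z₂ * (z₃ * z₃) := by group
  rw [e2, h.centre_sq, mul_one] at m3
  have h6 : z₃ = 1 := left_eq_mul.1 m3
  exact h.conj_z_ne h6

/-- The action of the normaliser of `D` on `D`. -/
theorem exists_centre : ∃ z' ∈ D, ∀ M : Subgroup L, z ∈ M → z' ∈ M →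
    ∀ n ∈ normalizer (D : Set L), ∀ d ∈ D, n * d * n⁻¹ * d⁻¹ ∈ M := by
  have hone : (1 : L) ∈ normalizer (D : Set L) := one_mem _
  have hz1 : 1 * z * 1⁻¹ = z := by group
  have hR : ∀ M : Subgroup L, z ∈ M → ∀ r ∈ R, ∀ d ∈ D, r * d * r⁻¹ * d⁻¹ ∈ M := by
    intro M hzM r hr d hd
    rcases h.cz.comm r hr d (h.le hd) with h1 | h1
    · rw [h1]; exact one_mem _
    · rw [h1]; exact hzM
  by_cases hex : ∃ n ∈ normalizer (D : Set L), n * z * n⁻¹ ≠ z
  · obtain ⟨n₀, hn₀, hne₀⟩ := hex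
    refine ⟨n₀ * z * n₀⁻¹, h.conj_D hn₀ h.zD, ?_⟩
    intro M hzM hz'M n hn d hd
    -- all centres lie in `M`
    have hcM : n * z * n⁻¹ ∈ M := by
      have hne1 : 1 * z * 1⁻¹ ≠ n₀ * z * n₀⁻¹ := by rw [hz1]; exact hne₀.symm
      rcases h.centre_three hone hn₀ hn hne1 with h1 | h1 | h1
      · rw [h1, hz1]; exact hzM
      · rw [h1]; exact hz'M
      · rw [h1, hz1]; exact M.mul_mem hzM hz'M
    by_cases hnz : n * z * n⁻¹ = z
    · apply hR M hzM n _ d hd
      rw [h.cz.eq]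
      rw [mul_inv_eq_iff_eq_mul] at hnz
      exact hnz
    · -- `n = a * b * r`
      have hne2 : n * z * n⁻¹ ≠ 1 * z * 1⁻¹ := by rw [hz1]; exact hnz
      have m1 := h.centre_move hn hone hne2
      have m2 := h.centre_move hone hn hne2.symm
      rw [hz1] at m1
      simp only [one_mul, inv_one, mul_one] at m2
      set b := n * a * n⁻¹ with hb
      set s := a * b with hs
      have hsz : s * z * s⁻¹ = n * z * n⁻¹ := by
        have e : s * z * s⁻¹ = a * (b * z * b⁻¹) * a⁻¹ := by rw [hs]; group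
        rw [e, m1]
        have e2 : a * (z * (n * z * n⁻¹)) * a⁻¹ = (a * z * a⁻¹) * (a * (n * z * n⁻¹) * a⁻¹) := by group
        rw [e2, m2]
        have h3 : a * z * a⁻¹ = z := by
          rw [mul_inv_eq_iff_eq_mul]
          exact (h.cz.eq a).1 h.aR
        rw [h3, ← mul_assoc, h.comm_D h.zD (h.conj_D hn h.zD), mul_assoc, h.cz.zz, mul_one]
      set r := s⁻¹ * n with hr
      have hrR : r ∈ R := by
        rw [h.cz.eq]
        have e : r * z * r⁻¹ = s⁻¹ * (n * z * n⁻¹) * s := by rw [hr]; group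
        rw [← hsz] at e
        have e2 : r * z * r⁻¹ = z := by rw [e]; group
        rw [mul_inv_eq_iff_eq_mul] at e2
        exact e2
      have hnr : n = a * b * r := by rw [hr, hs]; group
      have haN : a ∈ normalizer (D : Set L) := h.R_le_normalizer h.aR
      have h1 := hR M hzM r hrR d hd
      set d₁ := r * d * r⁻¹ with hd₁
      have hd₁D : d₁ ∈ D := h.conj_mem hrR hd
      have h2 : b * d₁ * b⁻¹ * d₁⁻¹ ∈ M := by
        rcases h.act hn hd₁D with h3 | h3
        · rw [h3, mul_inv_cancel]; exact one_mem _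
        · rw [h3, h.comm_D hd₁D (h.conj_D hn h.zD), mul_inv_cancel_right]
          exact hcM
      set d₂ := b * d₁ * b⁻¹ with hd₂
      have hbN : b ∈ normalizer (D : Set L) := mul_mem (mul_mem hn haN) (inv_mem hn)
      have hd₂D : d₂ ∈ D := h.conj_D hbN hd₁D
      have h3 := hR M hzM a h.aR d₂ hd₂D
      have e : n * d * n⁻¹ * d⁻¹ = (a * d₂ * a⁻¹ * d₂⁻¹) * (d₂ * d₁⁻¹) * (d₁ * d⁻¹) := by
        have e1 : n * d * n⁻¹ = a * d₂ * a⁻¹ := by
          rw [hd₂, hd₁]
          conv_lhs => rw [hnr]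
          group
        rw [e1]
        group
      rw [e]
      exact M.mul_mem (M.mul_mem h3 h2) h1
  · push Not at hex
    refine ⟨z, h.zD, ?_⟩
    intro M hzM _ n hn d hd
    apply hR M hzM n _ d hd
    have h1 := hex n hn
    rw [h.cz.eq]
    rw [mul_inv_eq_iff_eq_mul] at h1
    exact h1

end Tv

/-- The configuration inside `R`. -/
structure Fr (z y a : L) (R : Subgroup L) : Prop where
  cz : CZ z R
  yR : y ∈ R
  aR : a ∈ R
  yy : y * y = 1
  aa : a * a = 1
  move : a * y * a⁻¹ = y * z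
  el : ∀ d ∈ R, d * y = y * d → d * d = 1

namespace Fr

variable {z y a : L} {R : Subgroup L} (h : Fr z y a R)
include h

lemma zR : z ∈ R := (h.cz.eq z).2 rfl

lemma comm_z {r : L} (hr : r ∈ R) : z * r = r * z := ((h.cz.eq r).1 hr).symm

lemma inv_a : a⁻¹ = a := inv_eq_of_mul_eq_one_left h.aa

lemma inv_y : y⁻¹ = y := inv_eq_of_mul_eq_one_left h.yy

lemma a_y : a * y = y * z * a := by
  rw [← h.move]
  group

lemma inv_move : a⁻¹ * y * a = y * z := by
  rw [h.inv_a]
  have := h.move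
  rw [h.inv_a] at this
  exact this

lemma y_a : y * a = z * a * y := by
  have h1 := h.a_y
  calc y * a = y * (z * z) * a := by rw [h.cz.zz, mul_one]
    _ = (y * z) * (z * a) := by group
    _ = (y * z) * (a * z) := by rw [h.comm_z h.aR]
    _ = y * (z * a) * z := by group
    _ = y * (a * z) * z := by rw [h.comm_z h.aR]
    _ = y * a * (z * z) := by group
    _ = y * a := by rw [h.cz.zz, mul_one]
    _ = z * (z * (y * a)) := by rw [← mul_assoc, h.cz.zz, one_mul]
    _ = z * (z * y) * a := by group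
    _ = z * ((y * z) * a) := by rw [h.comm_z h.yR]; group
    _ = z * (a * y) := by rw [← h1]
    _ = z * a * y := by group

lemma ay_ne : a * y ≠ y * a := by
  intro h1
  have h2 := h.move
  rw [h1, mul_inv_cancel_right] at h2
  exact h.cz.ne (left_eq_mul.1 h2)

/-- Elements not commuting with `y`. -/
lemma cos_y {r : L} (hr : r ∈ R) : r * y = y * r ∨ (a⁻¹ * r) * y = y * (a⁻¹ * r) := by
  rcases h.cz.comm r hr y h.yR with h1 | h1
  · left
    have h2 : r * y * r⁻¹ = y := by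
      rw [mul_inv_eq_one] at h1
      exact h1
    rw [mul_inv_eq_iff_eq_mul] at h2
    exact h2
  · right
    have h2 : r * y = z * y * r := by
      rw [← h1]
      group
    calc a⁻¹ * r * y = a⁻¹ * (r * y) := by group
      _ = a⁻¹ * (z * y * r) := by rw [h2]
      _ = z * (a⁻¹ * y * a) * a⁻¹ * r := by
          have := h.comm_z (R.inv_mem h.aR)
          calc a⁻¹ * (z * y * r) = (a⁻¹ * z) * y * r := by group
            _ = (z * a⁻¹) * y * r := by rw [this]
            _ = _ := by group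
      _ = z * (y * z) * a⁻¹ * r := by rw [h.inv_move]
      _ = (z * y) * z * a⁻¹ * r := by group
      _ = (y * z) * z * a⁻¹ * r := by rw [h.comm_z h.yR]
      _ = y * (z * z) * a⁻¹ * r := by group
      _ = y * (a⁻¹ * r) := by rw [h.cz.zz]; group

/-- Elements not commuting with `a`. -/
lemma cos_a {r : L} (hr : r ∈ R) : r * a = a * r ∨ (y⁻¹ * r) * a = a * (y⁻¹ * r) := by
  rcases h.cz.comm r hr a h.aR with h1 | h1
  · left
    have h2 : r * a * r⁻¹ = a := by
      rw [mul_inv_eq_one] at h1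
      exact h1
    rw [mul_inv_eq_iff_eq_mul] at h2
    exact h2
  · right
    have h2 : r * a = z * a * r := by
      rw [← h1]
      group
    rw [h.inv_y]
    calc y * r * a = y * (r * a) := by group
      _ = y * (z * a * r) := by rw [h2]
      _ = (y * z) * a * r := by group
      _ = (z * y) * a * r := by rw [h.comm_z h.yR]
      _ = z * (y * a) * r := by group
      _ = z * (z * a * y) * r := by rw [h.y_a]
      _ = (z * z) * a * y * r := by group
      _ = a * (y * r) := by rw [h.cz.zz]; group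

end Fr

/-- The centraliser of `x` in `R`. -/
def cR (R : Subgroup L) (x : L) : Subgroup L := R ⊓ centralizer ({x} : Set L)

lemma mem_cR {R : Subgroup L} {x d : L} : d ∈ cR R x ↔ d ∈ R ∧ d * x = x * d := by
  rw [cR, mem_inf, mem_centralizer_singleton_iff]

namespace Fr

variable {z y a : L} {R : Subgroup L} (h : Fr z y a R)
include h

lemma tv₁ : Tv z R (cR R y) a y where
  cz := h.cz
  le := inf_le_left
  el := fun d hd => h.el d (mem_cR.1 hd).1 (mem_cR.1 hd).2
  zD := mem_cR.2 ⟨h.zR, (h.comm_z h.yR)⟩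
  aR := h.aR
  aD := fun hD => h.ay_ne (mem_cR.1 hD).2
  cos := by
    intro r hr
    rcases h.cos_y hr with h1 | h1
    · exact Or.inl (mem_cR.2 ⟨hr, h1⟩)
    · exact Or.inr (mem_cR.2 ⟨R.mul_mem (R.inv_mem h.aR) hr, h1⟩)
  d₀D := mem_cR.2 ⟨h.yR, rfl⟩
  move := h.move

lemma tv₂ : Tv z R (cR R a) y a where
  cz := h.cz
  le := inf_le_left
  el := by
    intro d hd
    obtain ⟨hdR, hda⟩ := mem_cR.1 hd
    rcases h.cos_y hdR with h1 | h1
    · exact h.el d hdR h1
    · have h2 := h.el _ (R.mul_mem (R.inv_mem h.aR) hdR) h1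
      rw [h.inv_a] at h2
      calc d * d = (a * a) * (d * d) := by rw [h.aa, one_mul]
        _ = a * (a * d) * d := by group
        _ = a * (d * a) * d := by rw [hda]
        _ = a * d * (a * d) := by group
        _ = 1 := h2
  zD := mem_cR.2 ⟨h.zR, (h.comm_z h.aR)⟩
  aR := h.yR
  aD := fun hD => h.ay_ne (mem_cR.1 hD).2.symm
  cos := by
    intro r hr
    rcases h.cos_a hr with h1 | h1
    · exact Or.inl (mem_cR.2 ⟨hr, h1⟩)
    · exact Or.inr (mem_cR.2 ⟨R.mul_mem (R.inv_mem h.yR) hr, h1⟩)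
  d₀D := mem_cR.2 ⟨h.aR, rfl⟩
  move := by
    rw [h.y_a, mul_inv_cancel_right]
    exact h.comm_z h.aR

lemma K_central {k r : L} (hk : k ∈ cR R y) (hk' : k ∈ cR R a) (hr : r ∈ R) : k * r = r * k := by
  have tv := h.tv₁
  rcases h.cos_y hr with h1 | h1
  · exact tv.comm_D hk (mem_cR.2 ⟨hr, h1⟩)
  · have h2 := tv.comm_D hk (mem_cR.2 ⟨R.mul_mem (R.inv_mem h.aR) hr, h1⟩)
    have h3 := (mem_cR.1 hk').2
    calc k * r = k * a * (a⁻¹ * r) := by group
      _ = a * k * (a⁻¹ * r) := by rw [h3]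
      _ = a * (k * (a⁻¹ * r)) := by group
      _ = a * ((a⁻¹ * r) * k) := by rw [h2]
      _ = r * k := by group

lemma rho_sq : (a * y) * (a * y) = z := by
  calc (a * y) * (a * y) = (a * y * a⁻¹) * (a * a) * y := by group
    _ = y * z * y := by rw [h.move, h.aa, mul_one]
    _ = z * y * y := by rw [h.comm_z h.yR]
    _ = z * (y * y) := by group
    _ = z := by rw [h.yy, mul_one]

/-- The invariance step. -/
theorem step [Finite L] (P : Sylow 2 L) (hP : (P : Subgroup L) = R) {z₁ z₂ : L}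
    (hz₁ : ∀ M : Subgroup L, z ∈ M → z₁ ∈ M →
      ∀ n ∈ normalizer ((cR R y : Subgroup L) : Set L), ∀ d ∈ cR R y, n * d * n⁻¹ * d⁻¹ ∈ M)
    (hz₂ : ∀ M : Subgroup L, z ∈ M → z₂ ∈ M →
      ∀ n ∈ normalizer ((cR R a : Subgroup L) : Set L), ∀ d ∈ cR R a, n * d * n⁻¹ * d⁻¹ ∈ M)
    (M : Subgroup L) (hMz : z ∈ M) (hM₁ : z₁ ∈ M) (hM₂ : z₂ ∈ M)
    (hMn : ∀ r ∈ R, ∀ s ∈ M, r * s * r⁻¹ ∈ M)
    {D : Subgroup L} (hD : Cfsg.Agent.Lib.PLocal.AlperinG.Good P D) {x : L}
    (hx : x ∈ normalizer (D : Set L)) {s : L} (hs : s ∈ D) (hsM : s ∈ M) : x⁻¹ * s * x ∈ M := by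
  have hDR : D ≤ R := hP ▸ hD.le
  have hKD : ∀ k, k ∈ cR R y → k ∈ cR R a → k ∈ D := by
    intro k hk hk'
    refine Cfsg.Agent.Lib.TwoFusion.GoodAut.Good.cent_le hD ?_ ?_
    · rw [hP]
      exact (mem_cR.1 hk).1
    · rw [mem_centralizer_iff]
      intro d hd
      exact (h.K_central hk hk' (hDR hd)).symm
  -- the case `a * y ∈ D`
  by_cases hρ : a * y ∈ D
  · have h1 : x⁻¹ * (a * y) * x ∈ D := by
      have := (mem_normalizer_iff.1 (inv_mem hx) (a * y)).1 hρ
      simpa using this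
    have h2 := h.cz.sq _ (hDR h1)
    have e : (x⁻¹ * (a * y) * x) * (x⁻¹ * (a * y) * x) = x⁻¹ * ((a * y) * (a * y)) * x := by group
    rw [e, h.rho_sq] at h2
    have h3 : x⁻¹ ∈ R := by
      rw [h.cz.eq]
      rcases h2 with h2 | h2
      · exfalso
        apply h.cz.ne
        have e2 : z = x * (x⁻¹ * z * x) * x⁻¹ := by group
        rw [e2, h2]
        group
      · calc x⁻¹ * z = (x⁻¹ * z * x) * x⁻¹ := by group
          _ = z * x⁻¹ := by rw [h2]
    have := hMn _ h3 s hsM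
    simpa using this
  have htv₁ := h.tv₁
  have htv₂ := h.tv₂
  by_cases hy : y ∈ D
  · have ha : a ∉ D := fun ha => hρ (D.mul_mem ha hy)
    have h1 : cR R y ≤ D := by
      intro d hd
      obtain ⟨hdR, hdy⟩ := mem_cR.1 hd
      rcases h.cos_a hdR with h2 | h2
      · exact hKD d hd (mem_cR.2 ⟨hdR, h2⟩)
      · have h3 : y⁻¹ * d ∈ D := by
          apply hKD
          · refine mem_cR.2 ⟨R.mul_mem (R.inv_mem h.yR) hdR, ?_⟩
            calc y⁻¹ * d * y = y⁻¹ * (d * y) := by group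
              _ = y⁻¹ * (y * d) := by rw [hdy]
              _ = d := by group
              _ = y * (y⁻¹ * d) := by group
          · exact mem_cR.2 ⟨R.mul_mem (R.inv_mem h.yR) hdR, h2⟩
        have := D.mul_mem hy h3
        simpa using this
    have h2 : D ≤ cR R y := by
      intro d hd
      rcases h.cos_y (hDR hd) with h3 | h3
      · exact mem_cR.2 ⟨hDR hd, h3⟩
      · exfalso
        have h4 := h1 (mem_cR.2 ⟨R.mul_mem (R.inv_mem h.aR) (hDR hd), h3⟩)
        have h5 := D.mul_mem hd (D.inv_mem h4)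
        apply ha
        simpa using h5
    have hDeq : D = cR R y := le_antisymm h2 h1
    rw [hDeq] at hx hs
    have h3 := hz₁ M hMz hM₁ x⁻¹ (inv_mem hx) s hs
    have h4 := M.mul_mem h3 hsM
    simpa using h4
  by_cases ha : a ∈ D
  · have h1 : cR R a ≤ D := by
      intro d hd
      obtain ⟨hdR, hda⟩ := mem_cR.1 hd
      rcases h.cos_y hdR with h2 | h2
      · exact hKD d (mem_cR.2 ⟨hdR, h2⟩) hd
      · have h3 : a⁻¹ * d ∈ D := by
          apply hKD
          · exact mem_cR.2 ⟨R.mul_mem (R.inv_mem h.aR) hdR, h2⟩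
          · refine mem_cR.2 ⟨R.mul_mem (R.inv_mem h.aR) hdR, ?_⟩
            calc a⁻¹ * d * a = a⁻¹ * (d * a) := by group
              _ = a⁻¹ * (a * d) := by rw [hda]
              _ = d := by group
              _ = a * (a⁻¹ * d) := by group
        have := D.mul_mem ha h3
        simpa using this
    have h2 : D ≤ cR R a := by
      intro d hd
      rcases h.cos_a (hDR hd) with h3 | h3
      · exact mem_cR.2 ⟨hDR hd, h3⟩
      · exfalso
        have h4 := h1 (mem_cR.2 ⟨R.mul_mem (R.inv_mem h.yR) (hDR hd), h3⟩)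
        have h5 := D.mul_mem hd (D.inv_mem h4)
        apply hy
        simpa using h5
    have hDeq : D = cR R a := le_antisymm h2 h1
    rw [hDeq] at hx hs
    have h3 := hz₂ M hMz hM₂ x⁻¹ (inv_mem hx) s hs
    have h4 := M.mul_mem h3 hsM
    simpa using h4
  · -- `D` is contained in the kernel
    exfalso
    apply ha
    have hDc : ∀ d ∈ D, d * a = a * d := by
      intro d hd
      have hdR := hDR hd
      rcases h.cos_a hdR with h2 | h2
      · exact h2
      exfalso
      rcases h.cos_y (R.mul_mem (R.inv_mem h.yR) hdR) with h3 | h3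
      · have h4 : y⁻¹ * d ∈ D := hKD _ (mem_cR.2 ⟨R.mul_mem (R.inv_mem h.yR) hdR, h3⟩)
          (mem_cR.2 ⟨R.mul_mem (R.inv_mem h.yR) hdR, h2⟩)
        have h5 := D.mul_mem hd (D.inv_mem h4)
        apply hy
        simpa using h5
      · have hmem : a⁻¹ * (y⁻¹ * d) ∈ R :=
          R.mul_mem (R.inv_mem h.aR) (R.mul_mem (R.inv_mem h.yR) hdR)
        have h4 : a⁻¹ * (y⁻¹ * d) ∈ D := by
          apply hKD _ (mem_cR.2 ⟨hmem, h3⟩)
          refine mem_cR.2 ⟨hmem, ?_⟩
          calc a⁻¹ * (y⁻¹ * d) * a = a⁻¹ * ((y⁻¹ * d) * a) := by group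
            _ = a⁻¹ * (a * (y⁻¹ * d)) := by rw [h2]
            _ = y⁻¹ * d := by group
            _ = a * (a⁻¹ * (y⁻¹ * d)) := by group
        have h5 := D.mul_mem hd (D.inv_mem h4)
        apply hρ
        have e : d * (a⁻¹ * (y⁻¹ * d))⁻¹ = y * a := by group
        rw [e] at h5
        have hzD : z ∈ D := hKD z (mem_cR.2 ⟨h.zR, h.comm_z h.yR⟩) (mem_cR.2 ⟨h.zR, h.comm_z h.aR⟩)
        have h6 := D.mul_mem hzD h5
        rw [h.y_a] at h6
        have e2 : z * (z * a * y) = (z * z) * a * y := by group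
        rw [e2, h.cz.zz, one_mul] at h6
        exact h6
    refine Cfsg.Agent.Lib.TwoFusion.GoodAut.Good.cent_le hD ?_ ?_
    · rw [hP]
      exact h.aR
    · rw [mem_centralizer_iff]
      intro d hd
      exact hDc d hd

end Fr

/-- A bound for the order of an extension by an involution. -/
lemma card_sup_zpowers_le [Finite L] (A : Subgroup L) {b : L} (hb : b * b = 1)
    (hA : ∀ x ∈ A, b * x * b⁻¹ ∈ A) :
    Nat.card (A ⊔ zpowers b : Subgroup L) ≤ 2 * Nat.card A := by
  classical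
  have hbi : b⁻¹ = b := inv_eq_of_mul_eq_one_left hb
  let C : Subgroup L :=
    { carrier := {g | g ∈ A ∨ b * g ∈ A}
      one_mem' := Or.inl A.one_mem
      mul_mem' := by
        rintro g k (hg | hg) (hk | hk)
        · exact Or.inl (A.mul_mem hg hk)
        · right
          have e : b * (g * k) = (b * g * b⁻¹) * (b * k) := by group
          rw [e]
          exact A.mul_mem (hA g hg) hk
        · right
          rw [← mul_assoc]
          exact A.mul_mem hg hk
        · left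
          have e2 : g * k = (b * (b * g) * b⁻¹) * (b * k) := by
            have h3 : (b * (b * g) * b⁻¹) * (b * k) = (b * b) * g * k := by group
            rw [h3, hb, one_mul]
          rw [e2]
          exact A.mul_mem (hA _ hg) hk
      inv_mem' := by
        rintro g (hg | hg)
        · exact Or.inl (A.inv_mem hg)
        · right
          have e : b * g⁻¹ = b * (b * g)⁻¹ * b⁻¹ := by
            have h3 : b * (b * g)⁻¹ * b⁻¹ = b * g⁻¹ * (b * b)⁻¹ := by group
            rw [h3, hb]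
            simp
          rw [e]
          exact hA _ (A.inv_mem hg) }
  have hle : A ⊔ zpowers b ≤ C := by
    refine sup_le (fun x hx => Or.inl hx) ?_
    rw [zpowers_le]
    right
    rw [hb]
    exact A.one_mem
  have h1 : Nat.card (A ⊔ zpowers b : Subgroup L) ≤ Nat.card C :=
    Subgroup.card_le_of_le hle
  refine h1.trans ?_
  let f : C → A × Bool := fun g =>
    if hg : (g : L) ∈ A then (⟨g, hg⟩, true) else
      (⟨b * g, by
        rcases g.2 with h2 | h2
        · exact absurd h2 hg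
        · exact h2⟩, false)
  have hf : Function.Injective f := by
    intro u v huv
    by_cases hu : (u : L) ∈ A <;> by_cases hv : (v : L) ∈ A <;> simp [f, hu, hv] at huv
    · exact huv
    · exact huv
  have h2 := Nat.card_le_card_of_injective f hf
  rw [Nat.card_prod, Nat.card_eq_fintype_card (α := Bool), Fintype.card_bool] at h2
  rw [mul_comm]
  exact h2

lemma mem_zpowers_two {z x : L} (hz : z * z = 1) (hx : x ∈ zpowers z) : x = 1 ∨ x = z := by
  obtain ⟨k, rfl⟩ := mem_zpowers_iff.1 hx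
  have hz2 : z ^ (2 : ℤ) = 1 := by
    rw [zpow_two, hz]
  rcases Int.even_or_odd' k with ⟨m, rfl | rfl⟩
  · left
    rw [zpow_mul, hz2, one_zpow]
  · right
    rw [zpow_add, zpow_mul, hz2, one_zpow, one_mul, zpow_one]

section Final

variable [Finite L]

lemma cz_of {z : L} (hz : orderOf z = 2) (R : Sylow 2 L)
    (hR : (R : Subgroup L) = centralizer ({z} : Set L))
    (hΦ : (frattini ↥(R : Subgroup L)).map (R : Subgroup L).subtype = zpowers z) :
    CZ z (R : Subgroup L) := by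
  have hzz : z * z = 1 := by
    have := pow_orderOf_eq_one z
    rwa [hz, pow_two] at this
  have hG : IsPGroup 2 ↥(R : Subgroup L) := R.isPGroup'
  have hmem : ∀ x : ↥(R : Subgroup L), x ∈ frattini ↥(R : Subgroup L) → (x : L) = 1 ∨ (x : L) = z := by
    intro x hx
    apply mem_zpowers_two hzz
    rw [← hΦ]
    exact ⟨x, hx, rfl⟩
  refine ⟨hzz, ?_, ?_, ?_, ?_⟩
  · rintro rfl
    simp at hz
  · intro r
    rw [hR, mem_centralizer_singleton_iff]
  · intro r hr
    have h1 := hmem _ (Cfsg.Agent.Lib.PGroups.Basic.pow_mem_frattini hG (⟨r, hr⟩ : ↥(R : Subgroup L)))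
    simpa [pow_two] using h1
  · intro r hr s hs
    have h1 := hmem _ (Cfsg.Agent.Lib.PGroups.Basic.commutator_le_frattini hG
      (Subgroup.commutator_mem_commutator (mem_top (⟨r, hr⟩ : ↥(R : Subgroup L)))
        (mem_top (⟨s, hs⟩ : ↥(R : Subgroup L)))))
    simpa [commutatorElement_def] using h1

lemma conj_z_of_normalizer {z : L} (hz : orderOf z = 2) (R : Sylow 2 L)
    (hΦ : (frattini ↥(R : Subgroup L)).map (R : Subgroup L).subtype = zpowers z)
    {g : L} (hg : g ∈ normalizer ((R : Subgroup L) : Set L)) : g * z * g⁻¹ = z := by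
  have hzz : z * z = 1 := by
    have := pow_orderOf_eq_one z
    rwa [hz, pow_two] at this
  have hz1 : z ≠ 1 := by
    rintro rfl
    simp at hz
  have hzm : z ∈ (frattini ↥(R : Subgroup L)).map (R : Subgroup L).subtype := by
    rw [hΦ]
    exact mem_zpowers z
  obtain ⟨z', hz', he⟩ := hzm
  let φ : MulAut ↥(R : Subgroup L) := normalizerMonoidHom (R : Subgroup L) ⟨g, hg⟩
  have hchar : (frattini ↥(R : Subgroup L)).Characteristic := inferInstance
  have h1 : φ z' ∈ frattini ↥(R : Subgroup L) := by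
    have := hchar.fixed φ
    rw [← this] at hz'
    exact hz'
  have h2 : ((φ z' : ↥(R : Subgroup L)) : L) = g * z * g⁻¹ := by
    rw [← he]
    rfl
  have h3 : g * z * g⁻¹ ∈ zpowers z := by
    rw [← hΦ, ← h2]
    exact ⟨_, h1, rfl⟩
  rcases mem_zpowers_two hzz h3 with h4 | h4
  · exfalso
    apply hz1
    have e : z = g⁻¹ * (g * z * g⁻¹) * g := by group
    rw [e, h4]
    group
  · exact h4

variable [IsSimpleGroup L]

/-- From the `Z*`-theorem: the involution `z` is not isolated. -/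
lemma exists_moved (hL : ¬ IsMulCommutative L) {z : L} (hz : orderOf z = 2) (R : Sylow 2 L)
    (hzR : z ∈ (R : Subgroup L)) : ∃ g : L, g * z * g⁻¹ ∈ (R : Subgroup L) ∧ g * z * g⁻¹ ≠ z := by
  by_contra hcon
  push Not at hcon
  obtain ⟨N, hNn, hNo, hN⟩ := Cfsg.Agent.S0215.result R z hz hzR hcon
  have hz1 : z ≠ 1 := by
    rintro rfl
    simp at hz
  rcases IsSimpleGroup.eq_bot_or_eq_top_of_normal N hNn with rfl | rfl
  · have hcen : ∀ g : L, z * g = g * z := by
      intro g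
      have := hN g
      rw [mem_bot] at this
      have h2 : z * g * z⁻¹ = g := by
        rw [mul_inv_eq_one] at this
        exact this
      rw [mul_inv_eq_iff_eq_mul] at h2
      exact h2
    have hn : (zpowers z).Normal := by
      constructor
      rintro _ ⟨k, rfl⟩ g
      have : g * z = z * g := (hcen g).symm
      have h3 : g * z * g⁻¹ = z := by rw [this]; group
      show g * z ^ k * g⁻¹ ∈ zpowers z
      rw [← conj_zpow, h3]
      exact ⟨k, rfl⟩
    rcases IsSimpleGroup.eq_bot_or_eq_top_of_normal _ hn with h1 | h1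
    · rw [zpowers_eq_bot] at h1
      exact hz1 h1
    · apply hL
      have hc : IsCyclic L := by
        rw [isCyclic_iff_exists_zpowers_eq_top]
        exact ⟨z, h1⟩
      exact IsCyclic.isMulCommutative
  · have h1 : Nat.card (⊤ : Subgroup L) = Nat.card L := Nat.card_congr Subgroup.topEquiv.toEquiv
    rw [h1] at hNo
    have h2 : 2 ∣ Nat.card L := by
      rw [← hz]
      exact orderOf_dvd_natCard z
    exact (Nat.not_even_iff_odd.2 hNo) (even_iff_two_dvd.2 h2)

/-- The main theorem. -/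
theorem main (hL : ¬ IsMulCommutative L) (z : L) (hz : orderOf z = 2) (R : Sylow 2 L)
    (hR : (R : Subgroup L) = centralizer ({z} : Set L))
    (hΦ : (frattini ↥(R : Subgroup L)).map (R : Subgroup L).subtype = zpowers z) :
    Nonempty (↥(R : Subgroup L) ≃* DihedralGroup 4) := by
  classical
  have hcz := cz_of hz R hR hΦ
  have hzR : z ∈ (R : Subgroup L) := (hcz.eq z).2 rfl
  have hnorm : ∀ {g : L}, g ∈ normalizer ((R : Subgroup L) : Set L) → g * z * g⁻¹ = z :=
    fun hg => conj_z_of_normalizer hz R hΦ hg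
  obtain ⟨g, hgR, hgne⟩ := exists_moved hL hz R hzR
  set y : L := g * z * g⁻¹ with hy
  have hyy : y * y = 1 := by
    have e : y * y = g * (z * z) * g⁻¹ := by rw [hy]; group
    rw [e, hcz.zz]
    group
  -- the centraliser of `y`
  have hCy : ∀ d : L, d * y = y * d → g⁻¹ * d * g ∈ (R : Subgroup L) := by
    intro d hd
    rw [hcz.eq]
    have e : (g⁻¹ * d * g) * z * (g⁻¹ * d * g)⁻¹ = g⁻¹ * (d * y * d⁻¹) * g := by
      rw [hy]; group
    have h1 : d * y * d⁻¹ = y := by rw [hd]; group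
    rw [h1, hy] at e
    have h2 : (g⁻¹ * d * g) * z * (g⁻¹ * d * g)⁻¹ = z := by rw [e]; group
    rw [mul_inv_eq_iff_eq_mul] at h2
    exact h2
  -- `y` is not central in `R`
  obtain ⟨a₀, ha₀R, ha₀⟩ : ∃ a ∈ (R : Subgroup L), a * y ≠ y * a := by
    by_contra hcon
    push Not at hcon
    have h1 : g⁻¹ ∈ normalizer ((R : Subgroup L) : Set L) := by
      apply mem_normalizer_fintype
      intro r hr
      have h0 := hCy r (hcon r hr)
      rw [inv_inv]
      exact h0
    have h2 := hnorm ((normalizer ((R : Subgroup L) : Set L)).inv_mem h1)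
    rw [inv_inv] at h2
    exact hgne h2
  have hmove₀ : a₀ * y * a₀⁻¹ = y * z := by
    rcases hcz.comm a₀ ha₀R y hgR with h1 | h1
    · exfalso
      apply ha₀
      rw [mul_inv_eq_one, mul_inv_eq_iff_eq_mul] at h1
      exact h1
    · have h2 : a₀ * y * a₀⁻¹ = z * y := by
        rw [← h1]
        group
      rw [h2]
      exact ((hcz.eq y).1 hgR).symm
  -- `C_R(y)` is elementary abelian
  have hel : ∀ d ∈ (R : Subgroup L), d * y = y * d → d * d = 1 := by
    intro d hd hdy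
    rcases hcz.sq d hd with h1 | h1
    · exact h1
    rcases hcz.sq _ (hCy d hdy) with h2 | h2
    · have e : (g⁻¹ * d * g) * (g⁻¹ * d * g) = g⁻¹ * (d * d) * g := by group
      rw [e] at h2
      have e2 : d * d = g * (g⁻¹ * (d * d) * g) * g⁻¹ := by group
      rw [e2, h2]
      group
    · exfalso
      apply hgne
      have e : (g⁻¹ * d * g) * (g⁻¹ * d * g) = g⁻¹ * (d * d) * g := by group
      rw [e] at h2
      have e2 : d * d = g * (g⁻¹ * (d * d) * g) * g⁻¹ := by group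
      rw [h2] at e2
      rw [hy, ← e2, h1]
  -- an involution `a`
  obtain ⟨a, haR, haa, hmove⟩ : ∃ a ∈ (R : Subgroup L), a * a = 1 ∧ a * y * a⁻¹ = y * z := by
    rcases hcz.sq a₀ ha₀R with h1 | h1
    · exact ⟨a₀, ha₀R, h1, hmove₀⟩
    · refine ⟨a₀ * y, mul_mem ha₀R hgR, ?_, ?_⟩
      · calc a₀ * y * (a₀ * y) = (a₀ * y * a₀⁻¹) * (a₀ * a₀) * y := by group
          _ = (y * z) * z * y := by rw [hmove₀, h1]
          _ = y * (z * z) * y := by group
          _ = 1 := by rw [hcz.zz, mul_one, hyy]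
      · calc a₀ * y * y * (a₀ * y)⁻¹ = a₀ * y * a₀⁻¹ := by group
          _ = y * z := hmove₀
  have F : Fr z y a (R : Subgroup L) := ⟨hcz, hgR, haR, hyy, haa, hmove, hel⟩
  obtain ⟨z₁, hz₁D, hz₁⟩ := F.tv₁.exists_centre
  obtain ⟨z₂, hz₂D, hz₂⟩ := F.tv₂.exists_centre
  have hz₁R : z₁ ∈ (R : Subgroup L) := (mem_cR.1 hz₁D).1
  have hz₂R : z₂ ∈ (R : Subgroup L) := (mem_cR.1 hz₂D).1
  have hz₁z₁ : z₁ * z₁ = 1 := F.tv₁.el _ hz₁D
  have hz₂z₂ : z₂ * z₂ = 1 := F.tv₂.el _ hz₂D
  -- the order of `R`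
  have hcard : Nat.card (R : Subgroup L) ≤ 8 := by
    by_contra hgt
    push Not at hgt
    have hinv : ∀ A : Subgroup L, z ∈ A → ∀ b ∈ (R : Subgroup L), ∀ x ∈ A, x ∈ (R : Subgroup L) →
        b * x * b⁻¹ ∈ A := by
      intro A hzA b hb x hx hxR
      rcases hcz.comm b hb x hxR with h1 | h1
      · rw [mul_inv_eq_one] at h1
        rw [h1]
        exact hx
      · have h2 : b * x * b⁻¹ = z * x := by
          rw [← h1]
          group
        rw [h2]
        exact A.mul_mem hzA hx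
    set A₀ : Subgroup L := zpowers z with hA₀
    set A₁ : Subgroup L := A₀ ⊔ zpowers z₁ with hA₁
    set A₂ : Subgroup L := A₁ ⊔ zpowers z₂ with hA₂
    have hA₀R : A₀ ≤ (R : Subgroup L) := (zpowers_le).2 hzR
    have hA₁R : A₁ ≤ (R : Subgroup L) := sup_le hA₀R ((zpowers_le).2 hz₁R)
    have hA₂R : A₂ ≤ (R : Subgroup L) := sup_le hA₁R ((zpowers_le).2 hz₂R)
    have hzA₀ : z ∈ A₀ := mem_zpowers z
    have hzA₁ : z ∈ A₁ := mem_sup_left hzA₀
    have hc₀ : Nat.card A₀ = 2 := by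
      rw [hA₀, Nat.card_zpowers, hz]
    have hc₁ : Nat.card A₁ ≤ 2 * 2 := by
      have := card_sup_zpowers_le A₀ hz₁z₁
        (fun x hx => hinv A₀ hzA₀ _ hz₁R x hx (hA₀R hx))
      rwa [hc₀] at this
    have hc₂ : Nat.card A₂ ≤ 2 * (2 * 2) := by
      have := card_sup_zpowers_le A₁ hz₂z₂
        (fun x hx => hinv A₁ hzA₁ _ hz₂R x hx (hA₁R hx))
      exact this.trans (Nat.mul_le_mul_left 2 hc₁)
    -- a maximal subgroup
    have hne : A₂.subgroupOf (R : Subgroup L) ≠ ⊤ := by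
      intro htop
      have h1 : (R : Subgroup L) ≤ A₂ := subgroupOf_eq_top.1 htop
      have h2 : Nat.card (R : Subgroup L) ≤ Nat.card A₂ := Subgroup.card_le_of_le h1
      omega
    obtain ⟨M', hM'c, hM'⟩ := (eq_top_or_exists_le_coatom (A₂.subgroupOf (R : Subgroup L))).resolve_left hne
    have hG : IsPGroup 2 ↥(R : Subgroup L) := R.isPGroup'
    have hidx : M'.index = 2 := Cfsg.Agent.Lib.PGroups.Basic.index_eq_of_isCoatom hG hM'c
    have hnormal : M'.Normal := Cfsg.Agent.Lib.PGroups.Basic.normal_of_isCoatom hG hM'c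
    set M₁ : Subgroup L := M'.map (R : Subgroup L).subtype with hM₁
    have hM₁mem : ∀ x ∈ A₂, x ∈ M₁ := by
      intro x hx
      refine ⟨⟨x, hA₂R hx⟩, hM' ?_, rfl⟩
      exact hx
    have hMn : ∀ r ∈ (R : Subgroup L), ∀ s ∈ M₁, r * s * r⁻¹ ∈ M₁ := by
      rintro r hr _ ⟨s, hs, rfl⟩
      exact ⟨_, hnormal.conj_mem s hs ⟨r, hr⟩, rfl⟩
    have hstep : ∀ D, Cfsg.Agent.Lib.PLocal.AlperinG.Good R D → ∀ x ∈ normalizer (D : Set L),
        ∀ s ∈ D, s ∈ M₁ → x⁻¹ * s * x ∈ M₁ := by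
      intro D hD x hx s hs hsM
      exact F.step R rfl hz₁ hz₂ M₁ (hM₁mem _ (mem_sup_left hzA₁))
        (hM₁mem _ (mem_sup_left (mem_sup_right (mem_zpowers z₁))))
        (hM₁mem _ (mem_sup_right (mem_zpowers z₂))) hMn hD hx hs hsM
    obtain ⟨K, hKn, hKi, -⟩ := Cfsg.Agent.Lib.TwoFusion.IndexTwo.exists_index_two R M' hidx (by
      intro u v g' huv hu
      have hg' : (g'⁻¹)⁻¹ * (u : L) * g'⁻¹ = v := by
        rw [huv]
        group
      have hvP : (g'⁻¹)⁻¹ * (u : L) * g'⁻¹ ∈ (R : Subgroup L) := by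
        rw [hg']
        exact v.2
      have h1 : (u : L) ∈ M₁ := ⟨u, hu, rfl⟩
      have h2 := Cfsg.Agent.Lib.TwoFusion.GoodAut.invariant_of_good R (fun s => s ∈ M₁) hstep u.2 hvP h1
      rw [hg'] at h2
      obtain ⟨w, hw, he⟩ := h2
      have : w = v := Subtype.ext he
      rwa [← this])
    rcases IsSimpleGroup.eq_bot_or_eq_top_of_normal K hKn with rfl | rfl
    · have h1 : Nat.card L = 2 := by
        rw [← hKi, index_bot]
      apply hL
      haveI : Fact (Nat.card L).Prime := ⟨by rw [h1]; exact Nat.prime_two⟩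
      have hc : IsCyclic L := isCyclic_of_prime_card rfl
      exact IsCyclic.isMulCommutative
    · rw [index_top] at hKi
      omega
  -- the dihedral group
  have hρρ : (a * y) * (a * y) = z := F.rho_sq
  have hG : IsPGroup 2 ↥(R : Subgroup L) := R.isPGroup'
  set ρ : ↥(R : Subgroup L) := ⟨a * y, mul_mem haR hgR⟩ with hρ
  set b : ↥(R : Subgroup L) := ⟨a, haR⟩ with hb
  haveI : Fact (Nat.Prime 2) := ⟨Nat.prime_two⟩
  have hρ2 : ρ ^ 2 ≠ 1 := by
    intro h1
    have h2 := congrArg Subtype.val h1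
    apply hcz.ne
    rw [← hρρ]
    simpa [pow_two, hρ] using h2
  have hρ4 : ρ ^ 4 = 1 := by
    apply Subtype.ext
    have e : ((ρ ^ 4 : ↥(R : Subgroup L)) : L) = ((a * y) * (a * y)) * ((a * y) * (a * y)) := by
      have e1 : ρ ^ 4 = (ρ * ρ) * (ρ * ρ) := by
        rw [show (4 : ℕ) = 2 + 2 from rfl, pow_add, pow_two]
      rw [e1]
      rfl
    rw [e, hρρ, hcz.zz]
    rfl
  have hord : orderOf ρ = 4 := by
    have := orderOf_eq_prime_pow (p := 2) (n := 1) (x := ρ) (by simpa using hρ2) (by simpa using hρ4)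
    simpa using this
  have hbb : b * b = 1 := Subtype.ext haa
  have hbρ : b * ρ * b⁻¹ = ρ⁻¹ := by
    apply Subtype.ext
    show a * (a * y) * a⁻¹ = (a * y)⁻¹
    rw [F.inv_a, mul_inv_rev, F.inv_a, F.inv_y, ← mul_assoc, haa, one_mul]
  have hbm : b ∉ zpowers ρ := by
    intro h1
    obtain ⟨k, hk⟩ := mem_zpowers_iff.1 h1
    have h2 : b * ρ = ρ * b := by
      rw [← hk, ← zpow_add_one, ← zpow_one_add, add_comm]
    have h3 : ρ⁻¹ = ρ := by
      rw [← hbρ, h2]
      group
    apply hρ2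
    rw [pow_two]
    nth_rewrite 1 [← h3]
    group
  have h8 : Nat.card ↥(R : Subgroup L) = 2 * 4 := by
    obtain ⟨k, hk⟩ := IsPGroup.iff_card.1 hG
    have h4 : Nat.card (zpowers ρ) = 4 := by rw [Nat.card_zpowers, hord]
    have hne : zpowers ρ ≠ ⊤ := by
      intro h1
      exact hbm (h1 ▸ mem_top b)
    have hlt : Nat.card (zpowers ρ) < Nat.card ↥(R : Subgroup L) :=
      Cfsg.Agent.Lib.ZStar.Main.card_lt_of_ne hne
    rw [h4, hk] at hlt
    rw [hk] at hcard ⊢
    have hk3 : k = 3 := by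
      have h5 : k < 4 := by
        by_contra h6
        push Not at h6
        have := Nat.pow_le_pow_right (show 0 < 2 by norm_num) h6
        omega
      have h7 : 2 < k := by
        by_contra h6
        push Not at h6
        have := Nat.pow_le_pow_right (show 0 < 2 by norm_num) h6
        omega
      omega
    rw [hk3]
    rfl
  exact Cfsg.Agent.Lib.TwoGroups.Present.nonempty_dihedral hord hbb hbρ hbm h8

end Final

end Cfsg.Agent.Lib.TwoFusion.PhiZ
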