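import Mathlib
import Cfsg.Agent.Lib.SuzukiTwo.QuadBound
import Cfsg.Agent.Lib.PGroups.Basic
import Cfsg.Agent.Lib.Char.Burnside
import Cfsg.Agent.Lib.FG85.SwapOrb

/-!
# Automorphisms of 2-groups with at most three involutions
-/

set_option autoImplicit false
set_option linter.unusedSectionVars false
set_option linter.unusedVariables false
set_option linter.style.haveILetI false

namespace Cfsg.Agent.Lib.TwoFusion.ThreeInv

open Cfsg.Agent.Lib.SuzukiTwo.QuadBound

section Perfect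

variable {B : Type*} [Group B]

theorem derivedSeries_top_of_perfect (hB : commutator B = ⊤) (n : ℕ) : derivedSeries B n = ⊤ := by
  induction n with
  | zero => rfl
  | succ n ih =>
    rw [derivedSeries_succ, ih]
    exact hB

theorem hom_trivial (hB : commutator B = ⊤) {H : Type*} [Group H] [hs : Group.IsSolvable H]
    (f : B →* H) (b : B) : f b = 1 := by
  obtain ⟨n, hn⟩ := (Group.isSolvable_def H).mp hs
  have h := map_derivedSeries_le_derivedSeries f n
  rw [derivedSeries_top_of_perfect hB, hn] at h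
  exact Subgroup.mem_bot.mp (h ⟨b, trivial, rfl⟩)

theorem isSolvable_perm_fin4 : Group.IsSolvable (Equiv.Perm (Fin 4)) :=
  (Group.isSolvable_def _).mpr ⟨3, Cfsg.Agent.Lib.FG85.SwapOrb.derivedSeries_perm4⟩

theorem isSolvable_perm_of_card_le {T : Type*} [Finite T] (h : Nat.card T ≤ 4) :
    Group.IsSolvable (Equiv.Perm T) := by
  classical
  haveI := Fintype.ofFinite T
  obtain ⟨e⟩ : Nonempty (T ↪ Fin 4) := Function.Embedding.nonempty_of_card_le (by
    rw [Fintype.card_fin, ← Nat.card_eq_fintype_card]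
    exact h)
  haveI := isSolvable_perm_fin4
  exact Group.isSolvable_of_isSolvable_injective (f := Equiv.Perm.viaEmbeddingHom e)
    (Equiv.Perm.viaEmbeddingHom_injective e)

/-- The permutation action on an invariant set. -/
def subHom {T : Type*} (f : B →* Equiv.Perm T) (S : Set T) (hS : ∀ b, ∀ x ∈ S, f b x ∈ S) :
    B →* Equiv.Perm S where
  toFun b := (f b).subtypePerm (fun x => ⟨fun h => by
      have h1 := hS b⁻¹ _ h
      rw [map_inv] at h1
      simpa using h1, hS b x⟩)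
  map_one' := by
    ext x
    show f 1 (x : T) = x
    rw [map_one]
    rfl
  map_mul' a b := by
    ext x
    show f (a * b) (x : T) = f a (f b x)
    rw [map_mul]
    rfl

lemma subHom_apply {T : Type*} (f : B →* Equiv.Perm T) (S : Set T)
    (hS : ∀ b, ∀ x ∈ S, f b x ∈ S) (b : B) (x : S) : (subHom f S hS b x : T) = f b x := rfl

/-- A perfect group acts trivially on small invariant sets. -/
theorem small_trivial (hB : commutator B = ⊤) {T : Type*} (f : B →* Equiv.Perm T) (S : Set T)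
    (hS : ∀ b, ∀ x ∈ S, f b x ∈ S) [Finite S] (hcard : Nat.card S ≤ 4) (b : B) (x : T) (hx : x ∈ S) :
    f b x = x := by
  haveI := isSolvable_perm_of_card_le hcard
  have h := hom_trivial hB (subHom f S hS) b
  have h2 := congrArg (fun g : Equiv.Perm S => (g ⟨x, hx⟩ : T)) h
  simpa [subHom_apply] using h2

end Perfect

/-- The quadratic bound over a quotient. -/
theorem QB_abs {Y A : Type*} [Group Y] [CommGroup A] [Finite Y] [Finite A] (hA : ∀ a : A, a * a = 1)
    (W : Subgroup Y) [W.Normal] (q : Y → A) (β : Y → Y → A)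
    (hq : ∀ x y, q (x * y) = q x * q y * β x y)
    (βl : ∀ x x' y, β (x * x') y = β x y * β x' y)
    (βr : ∀ x y y', β x (y * y') = β x y * β x y')
    (hβ1 : ∀ w ∈ W, ∀ y, β w y = 1) (hβ2 : ∀ w ∈ W, ∀ y, β y w = 1)
    (hqW : ∀ w ∈ W, q w = 1) (hz : ∀ y, q y = 1 → y ∈ W)
    (hsq : ∀ y, y * y ∈ W) (hcm : ∀ x y : Y, x * y * x⁻¹ * y⁻¹ ∈ W) :
    Nat.card (Y ⧸ W) ≤ Nat.card A ^ 2 := by
  classical
  have hQcomm : ∀ x y : Y ⧸ W, x * y = y * x := by
    intro x y
    obtain ⟨a, rfl⟩ := QuotientGroup.mk_surjective x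
    obtain ⟨b, rfl⟩ := QuotientGroup.mk_surjective y
    show ((a * b : Y) : Y ⧸ W) = ((b * a : Y) : Y ⧸ W)
    rw [QuotientGroup.eq]
    have e : (a * b)⁻¹ * (b * a) = b⁻¹ * a⁻¹ * b⁻¹⁻¹ * a⁻¹⁻¹ := by group
    rw [e]
    exact hcm _ _
  letI iV : CommGroup (Y ⧸ W) :=
    { (QuotientGroup.Quotient.group W) with mul_comm := hQcomm }
  have hqq : ∀ (y : Y) (w : Y), w ∈ W → q (y * w) = q y := by
    intro y w hw
    rw [hq, hqW w hw, hβ2 w hw, mul_one, mul_one]
  have hβ1' : ∀ (x x' y : Y), x' ∈ W → β (x * x') y = β x y := by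
    intro x x' y hx'
    rw [βl, hβ1 x' hx', mul_one]
  have hβ2' : ∀ (x y y' : Y), y' ∈ W → β x (y * y') = β x y := by
    intro x y y' hy'
    rw [βr, hβ2 y' hy', mul_one]
  let f : Y ⧸ W → A := fun v => q (Quotient.out v)
  let b : Y ⧸ W → Y ⧸ W → A := fun x y => β (Quotient.out x) (Quotient.out y)
  have hf : ∀ g : Y, f (g : Y ⧸ W) = q g := by
    intro g
    obtain ⟨c, hc⟩ := QuotientGroup.mk_out_eq_mul W g
    show q (Quotient.out (g : Y ⧸ W)) = _
    rw [hc, hqq _ _ c.2]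
  have hb : ∀ g l : Y, b (g : Y ⧸ W) (l : Y ⧸ W) = β g l := by
    intro g l
    obtain ⟨c, hc⟩ := QuotientGroup.mk_out_eq_mul W g
    obtain ⟨d, hd⟩ := QuotientGroup.mk_out_eq_mul W l
    show β (Quotient.out (g : Y ⧸ W)) (Quotient.out (l : Y ⧸ W)) = _
    rw [hc, hd, hβ1' _ _ _ c.2, hβ2' _ _ _ d.2]
  obtain ⟨d, n, hdV, hnZ, hdn⟩ := quad_bound_mul (V := Y ⧸ W) (W := A)
    (by
      intro v
      obtain ⟨g, rfl⟩ := QuotientGroup.mk_surjective v
      show ((g * g : Y) : Y ⧸ W) = 1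
      exact (QuotientGroup.eq_one_iff _).mpr (hsq g))
    hA f b
    (by
      intro x y
      obtain ⟨a, rfl⟩ := QuotientGroup.mk_surjective x
      obtain ⟨c, rfl⟩ := QuotientGroup.mk_surjective y
      show f ((a * c : Y) : Y ⧸ W) = _
      rw [hf, hf, hf, hb, hq])
    (by
      intro x x' y
      obtain ⟨a, rfl⟩ := QuotientGroup.mk_surjective x
      obtain ⟨c, rfl⟩ := QuotientGroup.mk_surjective x'
      obtain ⟨e, rfl⟩ := QuotientGroup.mk_surjective y
      show b ((a * c : Y) : Y ⧸ W) _ = _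
      rw [hb, hb, hb, βl])
    (by
      intro x y y'
      obtain ⟨a, rfl⟩ := QuotientGroup.mk_surjective x
      obtain ⟨c, rfl⟩ := QuotientGroup.mk_surjective y
      obtain ⟨e, rfl⟩ := QuotientGroup.mk_surjective y'
      show b _ ((c * e : Y) : Y ⧸ W) = _
      rw [hb, hb, hb, βr])
    (by
      intro v hv
      obtain ⟨g, rfl⟩ := QuotientGroup.mk_surjective v
      rw [hf] at hv
      exact (QuotientGroup.eq_one_iff _).mpr (hz g hv))
  rw [hdV, hnZ, ← pow_mul]
  exact Nat.pow_le_pow_right (by norm_num) (by omega)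


lemma fix_count {T : Type*} [Fintype T] [DecidableEq T] (s : Equiv.Perm T) (hs : s ^ 3 = 1)
    (h : Fintype.card T = 5) : 2 ≤ (Finset.univ.filter fun x => s x = x).card := by
  haveI : Fact (Nat.Prime 3) := ⟨Nat.prime_three⟩
  let f : Function.End T := fun x => s x
  have hf : f ^ 3 ^ 1 = 1 := by
    have e : f ^ 3 ^ 1 = f * f * f := by
      norm_num [pow_succ]
    rw [e]
    funext x
    have h1 : (s ^ 3) x = x := by rw [hs]; rfl
    have h3 : (s ^ 3) x = s (s (s x)) := by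
      rw [pow_succ, pow_two]
      rfl
    rw [h3] at h1
    exact h1
  have h1 := Equiv.Perm.card_fixedPoints_modEq (f := f) (p := 3) (n := 1) hf
  have h2 : ∀ inst : Fintype (Function.fixedPoints f),
      @Fintype.card _ inst = (Finset.univ.filter fun x => s x = x).card := by
    intro inst
    apply Fintype.card_of_subtype
    intro x
    simp [f, Function.mem_fixedPoints, Function.IsFixedPt]
  rw [h2, h] at h1
  unfold Nat.ModEq at h1
  omega

lemma three_dvd {B T : Type*} [Group B] [Finite T] (hB : commutator B = ⊤)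
    (g : B →* Equiv.Perm T) (hT : Nat.card T = 5) (hg : ∃ b, g b ≠ 1) : 3 ∣ Nat.card g.range := by
  classical
  haveI := Fintype.ofFinite T
  by_contra h3
  have h120 : Nat.card g.range ∣ 120 := by
    have h1 := Subgroup.card_subgroup_dvd_card g.range
    rw [Nat.card_eq_fintype_card (α := Equiv.Perm T), Fintype.card_perm,
      ← Nat.card_eq_fintype_card, hT] at h1
    exact h1
  have hcop : Nat.Coprime (Nat.card g.range) 3 :=
    (Nat.Coprime.symm ((Nat.Prime.coprime_iff_not_dvd Nat.prime_three).mpr h3))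
  have h40 : Nat.card g.range ∣ 2 ^ 3 * 5 ^ 1 := by
    have : Nat.card g.range ∣ 3 * (2 ^ 3 * 5 ^ 1) := by
      have e : 3 * (2 ^ 3 * 5 ^ 1) = 120 := by norm_num
      rw [e]
      exact h120
    exact hcop.dvd_of_dvd_mul_left this
  obtain ⟨y, z, hy, hz, hyz⟩ := (Nat.dvd_mul).mp h40
  obtain ⟨i, _, rfl⟩ := (Nat.dvd_prime_pow Nat.prime_two).mp hy
  obtain ⟨j, _, rfl⟩ := (Nat.dvd_prime_pow Nat.prime_five).mp hz
  haveI : Group.IsSolvable g.range :=
    Cfsg.Agent.Lib.Char.Burnside.isSolvable_of_card_eq 2 5 i j Nat.prime_two Nat.prime_five hyz.symm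
  obtain ⟨b, hb⟩ := hg
  apply hb
  have h1 := hom_trivial hB g.rangeRestrict b
  exact congrArg Subtype.val h1

section Main

variable {B Y : Type*} [Group B] [Group Y]

/-- The reduction context. -/
structure Ctx (φ : B →* MulAut Y) : Prop where
  perf : commutator B = ⊤
  p2 : IsPGroup 2 Y
  min : ∀ W : Subgroup Y, W ≠ ⊤ → (∀ b, ∀ w ∈ W, φ b w ∈ W) → ∀ b, ∀ w ∈ W, φ b w = w
  ne : ∃ b y, φ b y ≠ y

variable {φ : B →* MulAut Y}

lemma φ_mul (a b : B) (y : Y) : φ (a * b) y = φ a (φ b y) := by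
  rw [map_mul]
  rfl

lemma φ_inv_self (a : B) (y : Y) : φ a⁻¹ (φ a y) = y := by
  rw [map_inv]
  exact MulAut.inv_apply_self _ _ _

lemma φ_self_inv (a : B) (y : Y) : φ a (φ a⁻¹ y) = y := by
  rw [map_inv]
  exact MulAut.apply_inv_self _ _ _

variable [Finite Y] (hc : Ctx φ)
include hc

instance : Fact (Nat.Prime 2) := ⟨Nat.prime_two⟩

theorem Ctx.stable (W : Subgroup Y) (hW : ∀ b, ∀ w ∈ W, φ b w = w) :
    ¬ ∀ b y, y⁻¹ * φ b y ∈ W := by
  intro h
  obtain ⟨b, y, hne⟩ := hc.ne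
  let f : B →* W :=
    { toFun := fun a => ⟨y⁻¹ * φ a y, h a y⟩
      map_one' := Subtype.ext (by simp)
      map_mul' := fun a a' => by
        apply Subtype.ext
        show y⁻¹ * φ (a * a') y = y⁻¹ * φ a y * (y⁻¹ * φ a' y)
        rw [φ_mul]
        have h1 : φ a' y = y * (y⁻¹ * φ a' y) := by group
        have h2 := hW a _ (h a' y)
        calc y⁻¹ * φ a (φ a' y) = y⁻¹ * φ a (y * (y⁻¹ * φ a' y)) := by rw [← h1]
          _ = y⁻¹ * (φ a y * φ a (y⁻¹ * φ a' y)) := by rw [map_mul]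
          _ = y⁻¹ * (φ a y * (y⁻¹ * φ a' y)) := by rw [h2]
          _ = _ := by group }
  haveI : Group.IsNilpotent W :=
    Cfsg.Agent.Lib.PGroups.Basic.isNilpotent_of_pGroup (hc.p2.to_subgroup W)
  haveI : Group.IsSolvable W := inferInstance
  have h1 := hom_trivial hc.perf f b
  have h2 : y⁻¹ * φ b y = 1 := congrArg Subtype.val h1
  apply hne
  rw [inv_mul_eq_one] at h2
  exact h2.symm

theorem Ctx.top_of_gen (K : Subgroup Y) (h : ∀ b y, y⁻¹ * φ b y ∈ K) : K = ⊤ := by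
  let C : Subgroup Y := Subgroup.closure {z | ∃ b y, z = y⁻¹ * φ b y}
  have hCK : C ≤ K := by
    rw [Subgroup.closure_le]
    rintro _ ⟨b, y, rfl⟩
    exact h b y
  by_contra hne
  have hCne : C ≠ ⊤ := fun h1 => hne (top_le_iff.mp (h1 ▸ hCK))
  have hgen : ∀ b y, y⁻¹ * φ b y ∈ C := fun b y => Subgroup.subset_closure ⟨b, y, rfl⟩
  have hinv : ∀ a, ∀ w ∈ C, φ a w ∈ C := by
    intro a w hw
    induction hw using Subgroup.closure_induction with
    | mem z hz =>
      obtain ⟨b, y, rfl⟩ := hz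
      have e : φ a (y⁻¹ * φ b y) = (φ a y)⁻¹ * φ (a * b * a⁻¹) (φ a y) := by
        rw [φ_mul, φ_mul, φ_inv_self, map_mul, map_inv]
      rw [e]
      exact hgen _ _
    | one => rw [map_one]; exact C.one_mem
    | mul x y _ _ hx hy => rw [map_mul]; exact C.mul_mem hx hy
    | inv x _ hx => rw [map_inv]; exact C.inv_mem hx
  exact hc.stable C (hc.min C hCne hinv) hgen

/-- Invariant proper normal subgroups are central. -/
theorem Ctx.central (W : Subgroup Y) [hn : W.Normal] (hne : W ≠ ⊤)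
    (hinv : ∀ b, ∀ w ∈ W, φ b w ∈ W) (w : Y) (hw : w ∈ W) (y : Y) : w * y = y * w := by
  have hfix := hc.min W hne hinv
  have h := hc.top_of_gen (Subgroup.centralizer (W : Set Y)) (by
    intro b x
    rw [Subgroup.mem_centralizer_iff]
    intro z hz
    have hz' : z ∈ W := hz
    have h1 : x * z * x⁻¹ ∈ W := hn.conj_mem z hz' x
    have h2 := hfix b _ h1
    rw [map_mul, map_mul, map_inv, hfix b z hz'] at h2
    have h3 : (x⁻¹ * φ b x) * z * (x⁻¹ * φ b x)⁻¹ = z := by
      calc (x⁻¹ * φ b x) * z * (x⁻¹ * φ b x)⁻¹ = x⁻¹ * (φ b x * z * (φ b x)⁻¹) * x := by group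
        _ = x⁻¹ * (x * z * x⁻¹) * x := by rw [h2]
        _ = z := by group
    calc z * (x⁻¹ * φ b x) = (x⁻¹ * φ b x) * z * (x⁻¹ * φ b x)⁻¹ * (x⁻¹ * φ b x) := by rw [h3]
      _ = _ := by group)
  have hy : y ∈ Subgroup.centralizer (W : Set Y) := by rw [h]; trivial
  exact (Subgroup.mem_centralizer_iff.mp hy) w hw

omit hc in
/-- The action on a quotient. -/
noncomputable def quotAct (W : Subgroup Y) [W.Normal] (hinv : ∀ b, ∀ w ∈ W, φ b w ∈ W) :
    B →* MulAut (Y ⧸ W) where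
  toFun b := QuotientGroup.congr W W (φ b) (by
    apply le_antisymm
    · rintro _ ⟨w, hw, rfl⟩
      exact hinv b w hw
    · intro w hw
      exact ⟨φ b⁻¹ w, hinv _ w hw, φ_self_inv b w⟩)
  map_one' := by
    ext x
    obtain ⟨y, rfl⟩ := QuotientGroup.mk_surjective x
    simp [QuotientGroup.congr_mk]
  map_mul' a b := by
    ext x
    obtain ⟨y, rfl⟩ := QuotientGroup.mk_surjective x
    show ((φ (a * b) y : Y) : Y ⧸ W) = ((φ a (φ b y) : Y) : Y ⧸ W)
    rw [φ_mul]

omit hc in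
lemma quotAct_mk (W : Subgroup Y) [W.Normal] (hinv : ∀ b, ∀ w ∈ W, φ b w ∈ W) (b : B) (y : Y) :
    quotAct W hinv b (y : Y ⧸ W) = ((φ b y : Y) : Y ⧸ W) := rfl

/-- A proper invariant normal subgroup has index greater than `4`. -/
theorem Ctx.quot_le_four (W : Subgroup Y) [hn : W.Normal] (hne : W ≠ ⊤)
    (hinv : ∀ b, ∀ w ∈ W, φ b w ∈ W) : 4 < Nat.card (Y ⧸ W) := by
  by_contra hcard
  push Not at hcard
  have hfix := hc.min W hne hinv
  apply hc.stable W hfix
  intro b y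
  have h1 := small_trivial hc.perf ((MulAut.toPerm (Y ⧸ W)).comp (quotAct W hinv)) Set.univ
    (fun _ _ _ => trivial) (by simpa using hcard) b (y : Y ⧸ W) trivial
  have h2 : ((φ b y : Y) : Y ⧸ W) = (y : Y ⧸ W) := h1
  rw [eq_comm, QuotientGroup.eq] at h2
  exact h2

theorem Ctx.nontrivial : Nontrivial Y := by
  obtain ⟨b, y, hne⟩ := hc.ne
  refine ⟨⟨y, 1, fun h => hne ?_⟩⟩
  rw [h, map_one]

theorem Ctx.frattini_ne : frattini Y ≠ ⊤ := by
  intro h
  haveI := hc.nontrivial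
  have h1 : (⊥ : Subgroup Y) ⊔ frattini Y = ⊤ := by rw [h, sup_top_eq]
  exact bot_ne_top (frattini_nongenerating h1)

omit hc in
lemma char_mem {H : Subgroup Y} [hH : H.Characteristic] (e : MulAut Y) {w : Y} (hw : w ∈ H) :
    e w ∈ H := by
  have h := hH.fixed e.symm
  have h1 : w ∈ H.comap e.symm.toMonoidHom := by rw [h]; exact hw
  have h2 : e.symm (e w) = w := e.symm_apply_apply w
  rw [← h] 
  show e.symm (e w) ∈ H
  rw [h2]
  exact hw

theorem Ctx.frattini_inv : ∀ b, ∀ w ∈ frattini Y, φ b w ∈ frattini Y :=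
  fun b w hw => char_mem (φ b) hw

theorem Ctx.frattini_central (w : Y) (hw : w ∈ frattini Y) (y : Y) : w * y = y * w :=
  hc.central (frattini Y) hc.frattini_ne hc.frattini_inv w hw y

theorem Ctx.frattini_fix (b : B) (w : Y) (hw : w ∈ frattini Y) : φ b w = w :=
  hc.min _ hc.frattini_ne hc.frattini_inv b w hw

theorem Ctx.sq_mem (y : Y) : y * y ∈ frattini Y := by
  have := Cfsg.Agent.Lib.PGroups.Basic.pow_mem_frattini hc.p2 y
  rwa [pow_two] at this

theorem Ctx.cc_mem (x y : Y) : x⁻¹ * y * x * y⁻¹ ∈ frattini Y := by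
  apply Cfsg.Agent.Lib.PGroups.Basic.commutator_le_frattini hc.p2
  have := Subgroup.commutator_mem_commutator (Subgroup.mem_top x⁻¹) (Subgroup.mem_top y)
  rw [commutatorElement_def, inv_inv] at this
  exact this

theorem Ctx.cc_sq (x y : Y) : (x⁻¹ * y * x * y⁻¹) * (x⁻¹ * y * x * y⁻¹) = 1 := by
  set c := x⁻¹ * y * x * y⁻¹ with hc'
  have hcen := hc.frattini_central c (hc.cc_mem x y)
  have h1 : x⁻¹ * (y * y) * x = y * y := by
    calc x⁻¹ * (y * y) * x = x⁻¹ * ((y * y) * x) := by group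
      _ = x⁻¹ * (x * (y * y)) := by rw [hc.frattini_central _ (hc.sq_mem y) x]
      _ = y * y := by group
  have h2 : x⁻¹ * y * x = c * y := by
    rw [hc']
    group
  have h3 : x⁻¹ * (y * y) * x = (x⁻¹ * y * x) * (x⁻¹ * y * x) := by group
  rw [h3, h2] at h1
  have h4 : c * y * (c * y) = c * c * (y * y) := by
    calc c * y * (c * y) = c * (y * c) * y := by group
      _ = c * (c * y) * y := by rw [← hcen y]
      _ = _ := by group
  rw [h4] at h1
  exact mul_eq_right.mp h1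

theorem Ctx.sq_mul (x y : Y) :
    x * y * (x * y) = x * x * (y * y) * (x⁻¹ * y * x * y⁻¹) := by
  set c := x⁻¹ * y * x * y⁻¹ with hc'
  have hcen := hc.frattini_central c (hc.cc_mem x y)
  have h1 : x * y * (x * y) = x * x * c * (y * y) := by
    rw [hc']
    group
  rw [h1, mul_assoc (x * x) c, hcen (y * y), ← mul_assoc]

/-- Elements have order at most four. -/
theorem Ctx.pow4 (y : Y) : y * y * (y * y) = 1 := by
  have hzs : ∀ z : Y, z * z * (z * z) ∈ frattini Y := fun z =>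
    (frattini Y).mul_mem (hc.sq_mem z) (hc.sq_mem z)
  let f : Y →* Y :=
    { toFun := fun z => z * z * (z * z)
      map_one' := by simp
      map_mul' := fun a b => by
        show a * b * (a * b) * (a * b * (a * b)) = a * a * (a * a) * (b * b * (b * b))
        rw [hc.sq_mul a b]
        set c := a⁻¹ * b * a * b⁻¹ with hc'
        have h0 := hc.cc_sq a b
        rw [← hc'] at h0
        have hcen := hc.frattini_central c (hc.cc_mem a b)
        have hb := hc.frattini_central _ (hc.sq_mem b)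
        have ha := hc.frattini_central _ (hc.sq_mem a)
        calc a * a * (b * b) * c * (a * a * (b * b) * c)
            = a * a * ((b * b * c) * (a * a)) * (b * b * c) := by group
          _ = a * a * ((a * a) * (b * b * c)) * (b * b * c) := by rw [ha (b * b * c)]
          _ = a * a * (a * a) * (b * b * (c * (b * b)) * c) := by group
          _ = a * a * (a * a) * (b * b * ((b * b) * c) * c) := by rw [hcen (b * b)]
          _ = a * a * (a * a) * (b * b * (b * b)) * (c * c) := by group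
          _ = a * a * (a * a) * (b * b * (b * b)) := by rw [h0, mul_one] }
  have hfφ : ∀ (b : B) (z : Y), f (φ b z) = f z := by
    intro b z
    show φ b z * φ b z * (φ b z * φ b z) = z * z * (z * z)
    have e : φ b z * φ b z * (φ b z * φ b z) = φ b (z * z * (z * z)) := by
      simp only [map_mul]
    rw [e]
    exact hc.frattini_fix b _ (hzs z)
  have h := hc.top_of_gen f.ker (by
    intro b x
    rw [MonoidHom.mem_ker, map_mul, map_inv, hfφ, inv_mul_cancel])
  have hy : y ∈ f.ker := by rw [h]; trivial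
  exact hy


omit hc in
theorem exists_invol [Nontrivial Y] (h2 : IsPGroup 2 Y) : ∃ z : Y, z ≠ 1 ∧ z * z = 1 := by
  obtain ⟨x, hx⟩ := exists_ne (1 : Y)
  have h := Cfsg.Agent.Lib.PGroups.Basic.exists_orderOf_eq_of_ne_one h2 hx
  refine ⟨x ^ (orderOf x / 2), ?_, ?_⟩
  · intro h1
    rw [h1, orderOf_one] at h
    omega
  · have h3 := pow_orderOf_eq_one (x ^ (orderOf x / 2))
    rw [h, pow_two] at h3
    exact h3

theorem Ctx.cc_left (x x' y : Y) :
    (x * x')⁻¹ * y * (x * x') * y⁻¹ = (x⁻¹ * y * x * y⁻¹) * (x'⁻¹ * y * x' * y⁻¹) := by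
  set c := x⁻¹ * y * x * y⁻¹ with hc'
  have hcen := hc.frattini_central c (hc.cc_mem x y)
  have h2 : x⁻¹ * y * x = c * y := by
    rw [hc']
    group
  calc (x * x')⁻¹ * y * (x * x') * y⁻¹ = x'⁻¹ * (x⁻¹ * y * x) * x' * y⁻¹ := by group
    _ = x'⁻¹ * (c * y) * x' * y⁻¹ := by rw [h2]
    _ = (x'⁻¹ * c) * y * x' * y⁻¹ := by group
    _ = (c * x'⁻¹) * y * x' * y⁻¹ := by rw [hcen x'⁻¹]
    _ = _ := by group

theorem Ctx.cc_right (x y y' : Y) :
    x⁻¹ * (y * y') * x * (y * y')⁻¹ = (x⁻¹ * y * x * y⁻¹) * (x⁻¹ * y' * x * y'⁻¹) := by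
  set c := x⁻¹ * y' * x * y'⁻¹ with hc'
  have hcen := hc.frattini_central c (hc.cc_mem x y')
  have h2 : x⁻¹ * y' * x = c * y' := by
    rw [hc']
    group
  calc x⁻¹ * (y * y') * x * (y * y')⁻¹ = (x⁻¹ * y * x) * (x⁻¹ * y' * x) * y'⁻¹ * y⁻¹ := by group
    _ = (x⁻¹ * y * x) * (c * y') * y'⁻¹ * y⁻¹ := by rw [h2]
    _ = (x⁻¹ * y * x) * c * y⁻¹ := by group
    _ = (x⁻¹ * y * x) * (c * y⁻¹) := by group
    _ = (x⁻¹ * y * x) * (y⁻¹ * c) := by rw [hcen y⁻¹]
    _ = _ := by group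

section V

variable (V₀ : Subgroup Y) (hV₀ : ∀ y, y ∈ V₀ ↔ y * y = 1)
include hV₀

theorem Ctx.noncomm (hcard : Nat.card V₀ ≤ 4) : ¬ ∀ x y : Y, x * y = y * x := by
  intro hcomm
  haveI := hc.nontrivial
  let sq : Y →* Y :=
    { toFun := fun y => y * y
      map_one' := by simp
      map_mul' := fun a b => by
        show a * b * (a * b) = a * a * (b * b)
        calc a * b * (a * b) = a * (b * a) * b := by group
          _ = a * (a * b) * b := by rw [hcomm b a]
          _ = _ := by group }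
  have hker : sq.ker = V₀ := by
    ext y
    rw [MonoidHom.mem_ker, hV₀]
    rfl
  let W : Subgroup Y := sq.range
  haveI hn : W.Normal := ⟨fun n hn g => by
    rw [hcomm g n, mul_assoc, mul_inv_cancel, mul_one]
    exact hn⟩
  have hne : W ≠ ⊤ := by
    intro h
    have hs : Function.Surjective sq := MonoidHom.range_eq_top.mp h
    have hi : Function.Injective sq := Finite.injective_iff_surjective.mpr hs
    obtain ⟨z, hz, hz1⟩ := exists_invol hc.p2
    exact hz (hi (by simpa [sq] using hz1))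
  have hinv : ∀ b, ∀ w ∈ W, φ b w ∈ W := by
    rintro b _ ⟨y, rfl⟩
    exact ⟨φ b y, (map_mul (φ b) y y).symm⟩
  have h4 := hc.quot_le_four W hne hinv
  have h1 := Subgroup.card_mul_index sq.ker
  have h3 := Subgroup.card_mul_index W
  rw [Subgroup.index_ker] at h1
  have hpos : 0 < Nat.card W := Nat.card_pos
  have h5 : Nat.card (Y ⧸ W) = Nat.card sq.ker := by
    rw [← Subgroup.index_eq_card]
    have h6 : Nat.card W * W.index = Nat.card W * Nat.card sq.ker := by
      rw [h3, ← h1, mul_comm]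
    exact Nat.eq_of_mul_eq_mul_left hpos h6
  rw [h5, hker] at h4
  omega

theorem Ctx.sqV (y : Y) : y * y ∈ V₀ := (hV₀ _).2 (hc.pow4 y)

omit hc in
theorem normal_V : V₀.Normal := ⟨fun n hn g => (hV₀ _).2 (by
  have h := (hV₀ n).1 hn
  calc g * n * g⁻¹ * (g * n * g⁻¹) = g * (n * n) * g⁻¹ := by group
    _ = 1 := by rw [h]; group)⟩

omit hc in
theorem inv_V : ∀ b, ∀ w ∈ V₀, φ b w ∈ V₀ := fun b w hw => (hV₀ _).2 (by
  rw [← map_mul, (hV₀ w).1 hw, map_one])

theorem Ctx.V_ne (hcard : Nat.card V₀ ≤ 4) : V₀ ≠ ⊤ := by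
  intro h
  apply hc.noncomm V₀ hV₀ hcard
  have hs : ∀ y : Y, y * y = 1 := fun y => (hV₀ y).1 (by rw [h]; trivial)
  intro x y
  have h1 := hs (x * y)
  have h2 := hs x
  have h3 := hs y
  calc x * y = x * y * (y * x * (y * x)) := by rw [hs (y * x), mul_one]
    _ = x * (y * y) * x * (y * x) := by group
    _ = (x * x) * (y * x) := by rw [h3]; group
    _ = y * x := by rw [h2, one_mul]

theorem Ctx.V_central (hcard : Nat.card V₀ ≤ 4) (w : Y) (hw : w ∈ V₀) (y : Y) : w * y = y * w := by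
  haveI := normal_V V₀ hV₀
  exact hc.central V₀ (hc.V_ne V₀ hV₀ hcard) (inv_V V₀ hV₀) w hw y

theorem Ctx.V_fix (hcard : Nat.card V₀ ≤ 4) (b : B) (w : Y) (hw : w ∈ V₀) : φ b w = w :=
  hc.min V₀ (hc.V_ne V₀ hV₀ hcard) (inv_V V₀ hV₀) b w hw

theorem Ctx.ccV (x y : Y) : x⁻¹ * y * x * y⁻¹ ∈ V₀ := (hV₀ _).2 (hc.cc_sq x y)

/-- The squaring map with values in `V₀`. -/
def qq (y : Y) : V₀ := ⟨y * y, hc.sqV V₀ hV₀ y⟩

/-- The commutator map with values in `V₀`. -/
def ββ (x y : Y) : V₀ := ⟨x⁻¹ * y * x * y⁻¹, hc.ccV V₀ hV₀ x y⟩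

theorem Ctx.card_quot_le (hcard : Nat.card V₀ ≤ 4) (D : Subgroup V₀) (W : Subgroup Y) [hWn : W.Normal]
    (hVW : V₀ ≤ W) (hWZ : ∀ w ∈ W, ∀ y, w * y = y * w)
    (hwD : ∀ w ∈ W, qq hc V₀ hV₀ w ∈ D) (hz : ∀ y, qq hc V₀ hV₀ y ∈ D → y ∈ W) :
    Nat.card (Y ⧸ W) ≤ Nat.card (V₀ ⧸ D) ^ 2 := by
  classical
  have hVc : ∀ a b : V₀, a * b = b * a := by
    intro a b
    apply Subtype.ext
    exact hc.V_central V₀ hV₀ hcard a.1 a.2 b.1
  letI iV : CommGroup V₀ := { (inferInstance : Group V₀) with mul_comm := hVc }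
  haveI hDn : D.Normal := Subgroup.normal_of_isMulCommutative D
  letI iA : CommGroup (V₀ ⧸ D) := QuotientGroup.Quotient.commGroup D
  have hA2 : ∀ a : V₀ ⧸ D, a * a = 1 := by
    intro a
    obtain ⟨v, rfl⟩ := QuotientGroup.mk_surjective a
    show ((v * v : V₀) : V₀ ⧸ D) = 1
    have : v * v = 1 := Subtype.ext ((hV₀ v.1).1 v.2)
    rw [this]
    rfl
  have hcen : ∀ (v : Y) (y : Y), v ∈ W → y⁻¹ * v * y * v⁻¹ = 1 := by
    intro v y hv
    rw [mul_assoc y⁻¹, hWZ v hv y]
    group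
  have hcen' : ∀ (v : Y) (y : Y), v ∈ W → v⁻¹ * y * v * y⁻¹ = 1 := by
    intro v y hv
    rw [mul_assoc v⁻¹, ← hWZ v hv y]
    group
  refine QB_abs hA2 W (fun y => ((qq hc V₀ hV₀ y : V₀) : V₀ ⧸ D))
    (fun x y => ((ββ hc V₀ hV₀ x y : V₀) : V₀ ⧸ D)) ?_ ?_ ?_ ?_ ?_ ?_ ?_ ?_ ?_
  · intro x y
    show ((qq hc V₀ hV₀ (x * y) : V₀) : V₀ ⧸ D) =
      ((qq hc V₀ hV₀ x * qq hc V₀ hV₀ y * ββ hc V₀ hV₀ x y : V₀) : V₀ ⧸ D)
    congr 1
    apply Subtype.ext
    exact hc.sq_mul x y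
  · intro x x' y
    show ((ββ hc V₀ hV₀ (x * x') y : V₀) : V₀ ⧸ D) =
      ((ββ hc V₀ hV₀ x y * ββ hc V₀ hV₀ x' y : V₀) : V₀ ⧸ D)
    congr 1
    apply Subtype.ext
    exact hc.cc_left x x' y
  · intro x y y'
    show ((ββ hc V₀ hV₀ x (y * y') : V₀) : V₀ ⧸ D) =
      ((ββ hc V₀ hV₀ x y * ββ hc V₀ hV₀ x y' : V₀) : V₀ ⧸ D)
    congr 1
    apply Subtype.ext
    exact hc.cc_right x y y'
  · intro w hw y
    have : ββ hc V₀ hV₀ w y = 1 := Subtype.ext (hcen' w y hw)
    rw [this]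
    rfl
  · intro w hw y
    have : ββ hc V₀ hV₀ y w = 1 := Subtype.ext (hcen w y hw)
    rw [this]
    rfl
  · intro w hw
    exact (QuotientGroup.eq_one_iff _).mpr (hwD w hw)
  · intro y hy
    exact hz y ((QuotientGroup.eq_one_iff _).mp hy)
  · intro y
    exact hVW (hc.sqV V₀ hV₀ y)
  · intro x y
    have := hVW (hc.ccV V₀ hV₀ x⁻¹ y)
    simpa using this

theorem Ctx.card_U_le (hcard : Nat.card V₀ ≤ 4) [hn : V₀.Normal] :
    Nat.card (Y ⧸ V₀) ≤ Nat.card V₀ ^ 2 := by
  have h := hc.card_quot_le V₀ hV₀ hcard ⊥ V₀ le_rfl (hc.V_central V₀ hV₀ hcard)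
    (fun w hw => Subgroup.mem_bot.mpr (Subtype.ext ((hV₀ w).1 hw)))
    (fun y hy => (hV₀ y).2 (congrArg Subtype.val (Subgroup.mem_bot.mp hy)))
  rwa [← Subgroup.index_eq_card (⊥ : Subgroup V₀), Subgroup.index_bot] at h

/-- No non-trivial vector of `Y / V₀` is fixed. -/
theorem Ctx.no_fixed (hcard : Nat.card V₀ ≤ 4) (x : Y) (hx : x ∉ V₀) : ∃ b, x⁻¹ * φ b x ∉ V₀ := by
  by_contra hall
  push Not at hall
  haveI hVn := normal_V V₀ hV₀
  have hVcen := hc.V_central V₀ hV₀ hcard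
  have hVfix := hc.V_fix V₀ hV₀ hcard
  -- `x` is central
  have hxc : ∀ y, x * y = y * x := by
    have h := hc.top_of_gen (Subgroup.centralizer ({x} : Set Y)) (by
      intro b y
      rw [Subgroup.mem_centralizer_iff]
      intro z hz
      have hz' : z = x := hz
      rw [hz']
      set d := x⁻¹ * φ b x with hd
      set c := y⁻¹ * φ b y with hc'
      have hdV : d ∈ V₀ := hall b
      have e1 : φ b x = x * d := by rw [hd]; group
      have e2 : φ b y = y * c := by rw [hc']; group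
      have h1 := hVfix b _ (hc.ccV V₀ hV₀ x y)
      have h1' : (x * d)⁻¹ * (y * c) * (x * d) * (y * c)⁻¹ = x⁻¹ * y * x * y⁻¹ := by
        rw [← e1, ← e2]
        simpa only [map_mul, map_inv] using h1
      have h3 : d⁻¹ * (y * c) * d * (y * c)⁻¹ = 1 := by
        rw [mul_assoc d⁻¹, ← hVcen d hdV (y * c)]
        group
      rw [hc.cc_left x d (y * c), h3, mul_one, hc.cc_right x y c] at h1'
      have h6 := mul_eq_left.mp h1'
      have h7 : x⁻¹ * c * x = c := by
        calc x⁻¹ * c * x = x⁻¹ * c * x * c⁻¹ * c := by group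
          _ = c := by rw [h6, one_mul]
      calc x * c = x * (x⁻¹ * c * x) := by rw [h7]
        _ = c * x := by group)
    intro y
    have hy : y ∈ Subgroup.centralizer ({x} : Set Y) := by rw [h]; trivial
    exact ((Subgroup.mem_centralizer_iff.mp hy) x rfl)
  -- the centre
  let Z : Subgroup Y := Subgroup.center Y
  have hZne : Z ≠ ⊤ := by
    intro h
    apply hc.noncomm V₀ hV₀ hcard
    intro a b
    have : b ∈ Z := by rw [h]; trivial
    exact (Subgroup.mem_center_iff.mp this) a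
  have hZinv : ∀ b, ∀ w ∈ Z, φ b w ∈ Z := fun b w hw => char_mem (φ b) hw
  have h4 := hc.quot_le_four Z hZne hZinv
  let D : Subgroup V₀ :=
    { carrier := {v | ∃ z ∈ Z, qq hc V₀ hV₀ z = v}
      one_mem' := ⟨1, Z.one_mem, Subtype.ext (mul_one 1)⟩
      mul_mem' := by
        rintro _ _ ⟨z, hz, rfl⟩ ⟨z', hz', rfl⟩
        refine ⟨z * z', Z.mul_mem hz hz', Subtype.ext ?_⟩
        show z * z' * (z * z') = z * z * (z' * z')
        calc z * z' * (z * z') = z * (z' * z) * z' := by group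
          _ = z * (z * z') * z' := by rw [(Subgroup.mem_center_iff.mp hz) z']
          _ = _ := by group
      inv_mem' := by
        rintro _ ⟨z, hz, rfl⟩
        refine ⟨z⁻¹, Z.inv_mem hz, Subtype.ext ?_⟩
        show z⁻¹ * z⁻¹ = (z * z)⁻¹
        group }
  have hxZ : x ∈ Z := Subgroup.mem_center_iff.mpr (fun g => (hxc g).symm)
  have hDne : D ≠ ⊥ := by
    intro h
    have h1 : qq hc V₀ hV₀ x ∈ D := ⟨x, hxZ, rfl⟩
    rw [h] at h1
    apply hx
    exact (hV₀ x).2 (congrArg Subtype.val (Subgroup.mem_bot.mp h1))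
  have hD2 : 1 < Nat.card D := (Subgroup.one_lt_card_iff_ne_bot D).mpr hDne
  have hidx : Nat.card (V₀ ⧸ D) ≤ 2 := by
    have h1 := Subgroup.card_mul_index D
    rw [← Subgroup.index_eq_card]
    have h3 : 0 < D.index := Nat.pos_of_ne_zero Subgroup.index_ne_zero_of_finite
    by_contra h5
    push Not at h5
    have : 2 * 3 ≤ Nat.card D * D.index := Nat.mul_le_mul hD2 h5
    omega
  have h5 := hc.card_quot_le V₀ hV₀ hcard D Z
    (fun w hw => Subgroup.mem_center_iff.mpr (fun g => (hVcen w hw g).symm))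
    (fun w hw y => ((Subgroup.mem_center_iff.mp hw) y).symm)
    (fun w hw => ⟨w, hw, rfl⟩)
    (by
      rintro y ⟨z, hz, hzy⟩
      have hzy' : z * z = y * y := congrArg Subtype.val hzy
      have h6 : (y * z⁻¹) * (y * z⁻¹) = 1 := by
        have hc1 : z⁻¹ ∈ Z := Z.inv_mem hz
        calc (y * z⁻¹) * (y * z⁻¹) = y * (z⁻¹ * y) * z⁻¹ := by group
          _ = y * (y * z⁻¹) * z⁻¹ := by rw [(Subgroup.mem_center_iff.mp hc1) y]
          _ = y * y * (z * z)⁻¹ := by group
          _ = 1 := by rw [hzy']; group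
      have h7 : y * z⁻¹ ∈ Z :=
        Subgroup.mem_center_iff.mpr (fun g => (hVcen _ ((hV₀ _).2 h6) g).symm)
      have h8 := Z.mul_mem h7 hz
      simpa using h8)
  have h6 : Nat.card (V₀ ⧸ D) ^ 2 ≤ 2 ^ 2 := Nat.pow_le_pow_left hidx 2
  omega

section U

variable [hVn : V₀.Normal]

/-- Invariant subsets of the non-trivial vectors are large. -/
theorem Ctx.big_inv (hcard : Nat.card V₀ ≤ 4) (S : Set (Y ⧸ V₀))
    (hS : ∀ b, ∀ u ∈ S, quotAct (φ := φ) V₀ (inv_V V₀ hV₀) b u ∈ S) (h1 : (1 : Y ⧸ V₀) ∉ S)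
    (hne : S.Nonempty) : 5 ≤ Nat.card S := by
  by_contra hlt
  push Not at hlt
  obtain ⟨u, hu⟩ := hne
  obtain ⟨x, rfl⟩ := QuotientGroup.mk_surjective u
  have hx : x ∉ V₀ := by
    intro h
    apply h1
    have : ((x : Y) : Y ⧸ V₀) = 1 := (QuotientGroup.eq_one_iff _).mpr h
    rwa [this] at hu
  obtain ⟨b, hb⟩ := hc.no_fixed V₀ hV₀ hcard x hx
  have h2 := small_trivial hc.perf ((MulAut.toPerm (Y ⧸ V₀)).comp (quotAct (φ := φ) V₀ (inv_V V₀ hV₀))) S
    (fun b u hu => hS b u hu) (by omega) b _ hu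
  have h3 : ((φ b x : Y) : Y ⧸ V₀) = (x : Y ⧸ V₀) := h2
  rw [eq_comm, QuotientGroup.eq] at h3
  exact hb h3

/-- The induced map. -/
noncomputable def qb (u : Y ⧸ V₀) : V₀ := qq hc V₀ hV₀ (Quotient.out u)

theorem Ctx.qb_mk (hcard : Nat.card V₀ ≤ 4) (y : Y) : qb hc V₀ hV₀ (y : Y ⧸ V₀) = qq hc V₀ hV₀ y := by
  apply Subtype.ext
  show Quotient.out (y : Y ⧸ V₀) * Quotient.out (y : Y ⧸ V₀) = y * y
  obtain ⟨c, hc'⟩ := QuotientGroup.mk_out_eq_mul V₀ y
  rw [hc']
  have h1 := hc.V_central V₀ hV₀ hcard c.1 c.2 y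
  have h2 := (hV₀ c.1).1 c.2
  calc y * c * (y * c) = y * (c * y) * c := by group
    _ = y * (y * c) * c := by rw [h1]
    _ = y * y * (c * c) := by group
    _ = y * y := by rw [h2, mul_one]

theorem Ctx.qb_act (hcard : Nat.card V₀ ≤ 4) (b : B) (u : Y ⧸ V₀) :
    qb hc V₀ hV₀ (quotAct (φ := φ) V₀ (inv_V V₀ hV₀) b u) = qb hc V₀ hV₀ u := by
  obtain ⟨y, rfl⟩ := QuotientGroup.mk_surjective u
  rw [quotAct_mk, hc.qb_mk V₀ hV₀ hcard, hc.qb_mk V₀ hV₀ hcard]
  apply Subtype.ext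
  show φ b y * φ b y = y * y
  rw [← map_mul]
  exact hc.V_fix V₀ hV₀ hcard b _ (hc.sqV V₀ hV₀ y)

theorem Ctx.qb_eq_one (hcard : Nat.card V₀ ≤ 4) (u : Y ⧸ V₀) : qb hc V₀ hV₀ u = 1 ↔ u = 1 := by
  obtain ⟨y, rfl⟩ := QuotientGroup.mk_surjective u
  rw [hc.qb_mk V₀ hV₀ hcard]
  constructor
  · intro h
    exact (QuotientGroup.eq_one_iff _).mpr ((hV₀ y).2 (congrArg Subtype.val h))
  · intro h
    have h1 := (QuotientGroup.eq_one_iff _).mp h
    exact Subtype.ext ((hV₀ y).1 h1)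

/-- All fibres are non-empty. -/
theorem Ctx.fib_nonempty (hcard : Nat.card V₀ = 4) (hU : 4 < Nat.card (Y ⧸ V₀)) (a : V₀) (ha : a ≠ 1) :
    ∃ u : Y ⧸ V₀, qb hc V₀ hV₀ u = a := by
  by_contra hno
  push Not at hno
  have hcard' : Nat.card V₀ ≤ 4 := hcard.le
  let D : Subgroup V₀ := Subgroup.zpowers a
  have haa : a * a = 1 := Subtype.ext ((hV₀ a.1).1 a.2)
  have hD : ∀ v ∈ D, v = 1 ∨ v = a := by
    intro v hv
    obtain ⟨k, rfl⟩ := Subgroup.mem_zpowers_iff.mp hv
    rcases Int.even_or_odd k with ⟨m, rfl⟩ | ⟨m, rfl⟩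
    · left
      rw [← two_mul, zpow_mul]
      have : a ^ (2 : ℤ) = 1 := by
        rw [zpow_two, haa]
      rw [this, one_zpow]
    · right
      rw [zpow_add, zpow_mul]
      have : a ^ (2 : ℤ) = 1 := by
        rw [zpow_two, haa]
      rw [this, one_zpow, one_mul, zpow_one]
  have hDne : D ≠ ⊥ := by
    intro h
    have h1 : a ∈ D := Subgroup.mem_zpowers a
    rw [h] at h1
    exact ha (Subgroup.mem_bot.mp h1)
  have hD2 : 1 < Nat.card D := (Subgroup.one_lt_card_iff_ne_bot D).mpr hDne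
  have hidx : Nat.card (V₀ ⧸ D) ≤ 2 := by
    have h1 := Subgroup.card_mul_index D
    rw [← Subgroup.index_eq_card]
    have h3 : 0 < D.index := Nat.pos_of_ne_zero Subgroup.index_ne_zero_of_finite
    by_contra h5
    push Not at h5
    have : 2 * 3 ≤ Nat.card D * D.index := Nat.mul_le_mul hD2 h5
    omega
  have h5 := hc.card_quot_le V₀ hV₀ hcard' D V₀ le_rfl (hc.V_central V₀ hV₀ hcard')
    (fun w hw => by
      have : qq hc V₀ hV₀ w = 1 := Subtype.ext ((hV₀ w).1 hw)
      rw [this]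
      exact D.one_mem)
    (by
      intro y hy
      rcases hD _ hy with h | h
      · exact (hV₀ y).2 (congrArg Subtype.val h)
      · exfalso
        apply hno (y : Y ⧸ V₀)
        rw [hc.qb_mk V₀ hV₀ hcard', h])
  have h6 : Nat.card (V₀ ⧸ D) ^ 2 ≤ 2 ^ 2 := Nat.pow_le_pow_left hidx 2
  omega


/-- The final contradiction. -/
theorem Ctx.false_of [Finite B] (hcard : Nat.card V₀ ≤ 4) : False := by
  classical
  haveI hFU : Fintype (Y ⧸ V₀) := Fintype.ofFinite _
  haveI hFV : Fintype V₀ := Fintype.ofFinite _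
  have hinv := inv_V (φ := φ) V₀ hV₀
  have hne := hc.V_ne V₀ hV₀ hcard
  let act := quotAct (φ := φ) V₀ hinv
  have hact : ∀ b (y : Y), act b (y : Y ⧸ V₀) = ((φ b y : Y) : Y ⧸ V₀) := fun b y => rfl
  have hQcomm : ∀ x y : Y ⧸ V₀, x * y = y * x := by
    intro x y
    obtain ⟨a, rfl⟩ := QuotientGroup.mk_surjective x
    obtain ⟨b, rfl⟩ := QuotientGroup.mk_surjective y
    show ((a * b : Y) : Y ⧸ V₀) = ((b * a : Y) : Y ⧸ V₀)
    rw [QuotientGroup.eq]
    have e : (a * b)⁻¹ * (b * a) = (b⁻¹)⁻¹ ⁻¹ * a⁻¹ * (b⁻¹)⁻¹ * (a⁻¹)⁻¹ := by group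
    have h1 := hc.ccV V₀ hV₀ b a⁻¹
    rw [e]
    simpa using h1
  have hU2 : ∀ u : Y ⧸ V₀, u * u = 1 := by
    intro u
    obtain ⟨y, rfl⟩ := QuotientGroup.mk_surjective u
    exact (QuotientGroup.eq_one_iff _).mpr (hc.sqV V₀ hV₀ y)
  have hle := hc.card_U_le V₀ hV₀ hcard
  have hU4 := hc.quot_le_four V₀ hne hinv
  have hV4 : Nat.card V₀ = 4 := by
    obtain ⟨k, hk⟩ := (hc.p2.to_subgroup V₀).exists_card_eq
    rw [hk] at hcard hle ⊢
    have hk2 : k ≤ 2 := by
      by_contra h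
      have : 2 ^ 3 ≤ 2 ^ k := Nat.pow_le_pow_right (by norm_num) (by omega)
      omega
    interval_cases k
    · omega
    · omega
    · rfl
  have hU16 : Nat.card (Y ⧸ V₀) ≤ 16 := by
    rw [hV4] at hle
    omega
  let fib : V₀ → Finset (Y ⧸ V₀) := fun a => Finset.univ.filter (fun u => qb hc V₀ hV₀ u = a)
  have hSinv : ∀ (a : V₀) (b : B) (u : Y ⧸ V₀), u ∈ {u | qb hc V₀ hV₀ u = a} →
      ((MulAut.toPerm (Y ⧸ V₀)).comp act) b u ∈ {u | qb hc V₀ hV₀ u = a} := by
    intro a b u hu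
    show qb hc V₀ hV₀ (act b u) = a
    rw [hc.qb_act V₀ hV₀ hcard]
    exact hu
  have hScard : ∀ a : V₀, Nat.card {u | qb hc V₀ hV₀ u = a} = (fib a).card := by
    intro a
    rw [Nat.card_eq_fintype_card]
    apply Fintype.card_of_subtype
    intro u
    simp [fib]
  have hbig : ∀ a : V₀, a ≠ 1 → 5 ≤ (fib a).card := by
    intro a ha
    rw [← hScard a]
    refine hc.big_inv V₀ hV₀ hcard _ (fun b u hu => hSinv a b u hu) ?_ ?_
    · intro h1
      have h2 : qb hc V₀ hV₀ (1 : Y ⧸ V₀) = a := h1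
      rw [(hc.qb_eq_one V₀ hV₀ hcard 1).mpr rfl] at h2
      exact ha h2.symm
    · obtain ⟨u, hu⟩ := hc.fib_nonempty V₀ hV₀ hV4 hU4 a ha
      exact ⟨u, hu⟩
  have hfib1 : (fib 1).card = 1 := by
    rw [Finset.card_eq_one]
    refine ⟨1, ?_⟩
    ext u
    simp only [fib, Finset.mem_filter, Finset.mem_univ, true_and, Finset.mem_singleton]
    exact hc.qb_eq_one V₀ hV₀ hcard u
  have hsum : Fintype.card (Y ⧸ V₀) = ∑ a, (fib a).card :=
    Finset.card_eq_sum_card_fiberwise (fun _ _ => Finset.mem_univ _)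
  have hVfc : Fintype.card V₀ = 4 := by rw [← Nat.card_eq_fintype_card, hV4]
  have herase : (Finset.univ.erase (1 : V₀)).card = 3 := by
    rw [Finset.card_erase_of_mem (Finset.mem_univ _), Finset.card_univ, hVfc]
  have hsum2 : Fintype.card (Y ⧸ V₀) = 1 + ∑ a ∈ Finset.univ.erase (1 : V₀), (fib a).card := by
    rw [hsum, ← Finset.add_sum_erase _ _ (Finset.mem_univ (1 : V₀)), hfib1]
  have hUfc : Fintype.card (Y ⧸ V₀) ≤ 16 := by rwa [← Nat.card_eq_fintype_card]
  have hexact : ∀ a : V₀, a ≠ 1 → (fib a).card = 5 := by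
    intro a ha
    have h1 := hbig a ha
    by_contra h5
    have hgt : 6 ≤ (fib a).card := by omega
    have hmem : a ∈ Finset.univ.erase (1 : V₀) := Finset.mem_erase.mpr ⟨ha, Finset.mem_univ _⟩
    have h2 := Finset.add_sum_erase _ (fun a => (fib a).card) hmem
    have h3 : ((Finset.univ.erase (1 : V₀)).erase a).card = 2 := by
      rw [Finset.card_erase_of_mem hmem, herase]
    have h4 : ((Finset.univ.erase (1 : V₀)).erase a).card • 5 ≤
        ∑ x ∈ (Finset.univ.erase (1 : V₀)).erase a, (fib x).card := by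
      apply Finset.card_nsmul_le_sum
      intro x hx
      exact hbig x (Finset.ne_of_mem_erase (Finset.mem_of_mem_erase hx))
    rw [h3] at h4
    simp only [smul_eq_mul] at h4
    omega
  have hUeq : Fintype.card (Y ⧸ V₀) = 16 := by
    apply le_antisymm hUfc
    have h4 : (Finset.univ.erase (1 : V₀)).card • 5 ≤
        ∑ x ∈ Finset.univ.erase (1 : V₀), (fib x).card := by
      apply Finset.card_nsmul_le_sum
      intro x hx
      exact hbig x (Finset.ne_of_mem_erase hx)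
    rw [herase] at h4
    simp only [smul_eq_mul] at h4
    omega
  -- the element of order three
  haveI hVnt : Nontrivial V₀ := by
    apply Finite.one_lt_card_iff_nontrivial.mp
    omega
  obtain ⟨a₀, ha₀⟩ := exists_ne (1 : V₀)
  let gh : (a : V₀) → B →* Equiv.Perm {u | qb hc V₀ hV₀ u = a} := fun a =>
    subHom ((MulAut.toPerm (Y ⧸ V₀)).comp act) {u | qb hc V₀ hV₀ u = a} (hSinv a)
  have hT : ∀ a : V₀, a ≠ 1 → Nat.card {u | qb hc V₀ hV₀ u = a} = 5 := by
    intro a ha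
    rw [hScard, hexact a ha]
  have hone_not : ∀ a : V₀, a ≠ 1 → ∀ u, qb hc V₀ hV₀ u = a → u ≠ 1 := by
    intro a ha u hu h1
    rw [h1, (hc.qb_eq_one V₀ hV₀ hcard 1).mpr rfl] at hu
    exact ha hu.symm
  have hgne : ∃ b, gh a₀ b ≠ 1 := by
    by_contra hall
    push Not at hall
    obtain ⟨u, hu⟩ := hc.fib_nonempty V₀ hV₀ hV4 hU4 a₀ ha₀
    have hfix : ∀ b, act b u = u := by
      intro b
      have h1 := congrArg (fun p : Equiv.Perm {u | qb hc V₀ hV₀ u = a₀} => ((p ⟨u, hu⟩ : _) : Y ⧸ V₀))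
        (hall b)
      exact h1
    have h5 := hc.big_inv V₀ hV₀ hcard {u}
      (fun b v hv => by
        rw [Set.mem_singleton_iff] at hv ⊢
        rw [hv]
        exact hfix b)
      (fun h => hone_not a₀ ha₀ u hu (Set.mem_singleton_iff.mp h).symm)
      (Set.singleton_nonempty u)
    simp at h5
  have h3 := three_dvd hc.perf (gh a₀) (hT a₀ ha₀) hgne
  have hker : act.ker ≤ (gh a₀).ker := by
    intro b hb
    apply MonoidHom.mem_ker.mpr
    ext x
    show act b x.1 = x.1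
    rw [MonoidHom.mem_ker.mp hb]
    rfl
  have h3' : 3 ∣ Nat.card act.range := by
    rw [← Subgroup.index_ker] at h3 ⊢
    exact h3.trans (Subgroup.index_dvd_of_le hker)
  haveI : Fact (Nat.Prime 3) := ⟨Nat.prime_three⟩
  obtain ⟨⟨_, t, rfl⟩, hord⟩ := exists_prime_orderOf_dvd_card' 3 h3'
  have hord' : orderOf (act t) = 3 := by
    rw [← hord]
    exact Subgroup.orderOf_coe (⟨act t, ⟨t, rfl⟩⟩ : act.range)
  have hσ3 : (act t) ^ 3 = 1 := by
    rw [← hord']
    exact pow_orderOf_eq_one _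
  set σ := act t with hσdef
  let Cf : Finset (Y ⧸ V₀) := Finset.univ.filter (fun u => σ u = u)
  have hsumC : Cf.card = ∑ a, (Cf.filter (fun u => qb hc V₀ hV₀ u = a)).card :=
    Finset.card_eq_sum_card_fiberwise (fun _ _ => Finset.mem_univ _)
  have hCa : ∀ a : V₀, a ≠ 1 → 2 ≤ (Cf.filter (fun u => qb hc V₀ hV₀ u = a)).card := by
    intro a ha
    let s := gh a t
    have hs : s ^ 3 = 1 := by
      have e : s ^ 3 = gh a (t ^ 3) := (map_pow _ _ _).symm
      rw [e]
      ext x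
      show act (t ^ 3) x.1 = x.1
      rw [map_pow, ← hσdef, hσ3]
      rfl
    have hTf : Fintype.card {u | qb hc V₀ hV₀ u = a} = 5 := by
      rw [← Nat.card_eq_fintype_card]
      exact hT a ha
    have h2 := fix_count s hs hTf
    refine h2.trans ?_
    apply Finset.card_le_card_of_injOn (fun x => x.1)
    · intro x hx
      have hx1 : s x = x := by simpa using hx
      have hx2 : σ x.1 = x.1 := congrArg Subtype.val hx1
      simp only [Finset.coe_filter, Set.mem_setOf_eq, Cf, Finset.mem_filter, Finset.mem_univ, true_and]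
      exact ⟨hx2, x.2⟩
    · intro x _ y _ hxy
      exact Subtype.ext hxy
  have hCa1 : 1 ≤ (Cf.filter (fun u => qb hc V₀ hV₀ u = 1)).card := by
    apply Finset.card_pos.mpr
    refine ⟨1, ?_⟩
    simp only [Cf, Finset.mem_filter, Finset.mem_univ, true_and]
    exact ⟨map_one σ, (hc.qb_eq_one V₀ hV₀ hcard 1).mpr rfl⟩
  have hC7 : 7 ≤ Cf.card := by
    rw [hsumC, ← Finset.add_sum_erase _ _ (Finset.mem_univ (1 : V₀))]
    have h4 : (Finset.univ.erase (1 : V₀)).card • 2 ≤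
        ∑ x ∈ Finset.univ.erase (1 : V₀), (Cf.filter (fun u => qb hc V₀ hV₀ u = x)).card := by
      apply Finset.card_nsmul_le_sum
      intro x hx
      exact hCa x (Finset.ne_of_mem_erase hx)
    rw [herase] at h4
    simp only [smul_eq_mul] at h4
    omega
  let C : Subgroup (Y ⧸ V₀) :=
    { carrier := {u | σ u = u}
      one_mem' := map_one σ
      mul_mem' := fun {a b} ha hb => by
        show σ (a * b) = a * b
        rw [map_mul, show σ a = a from ha, show σ b = b from hb]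
      inv_mem' := fun {a} ha => by
        show σ a⁻¹ = a⁻¹
        rw [map_inv, show σ a = a from ha] }
  have hCcard : Nat.card C = Cf.card := by
    rw [Nat.card_eq_fintype_card]
    apply Fintype.card_of_subtype
    intro u
    simp only [Cf, Finset.mem_filter, Finset.mem_univ, true_and]
    rfl
  have hindex := Subgroup.card_mul_index C
  rw [hCcard, Nat.card_eq_fintype_card (α := Y ⧸ V₀), hUeq] at hindex
  have hall : ∀ u, σ u = u := by
    by_contra hno
    push Not at hno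
    obtain ⟨u, hu⟩ := hno
    have huC : u ∉ C := hu
    have hCne : C ≠ ⊤ := fun h => huC (by rw [h]; trivial)
    have hi1 : C.index ≠ 1 := fun h => hCne (Subgroup.index_eq_one.mp h)
    have hi0 : C.index ≠ 0 := Subgroup.index_ne_zero_of_finite
    have hi2 : C.index = 2 := by
      have hle2 : C.index ≤ 2 := by
        by_contra h5
        push Not at h5
        have : 7 * 3 ≤ Cf.card * C.index := Nat.mul_le_mul hC7 h5
        omega
      omega
    have hτ : σ u ∉ C := by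
      intro h
      have h1 : σ (σ u) = σ u := h
      exact hu (σ.injective h1)
    have hd : u * σ u ∈ C := (Subgroup.mul_mem_iff_of_index_two hi2).mpr (iff_of_false huC hτ)
    have hdd : σ (u * σ u) = u * σ u := hd
    rw [map_mul, hQcomm u] at hdd
    have h2 : σ (σ u) = u := mul_left_cancel hdd
    have h5 : (σ ^ 3) u = u := by
      rw [hσ3]
      rfl
    have h6 : (σ ^ 3) u = σ (σ (σ u)) := by
      rw [pow_succ, pow_two]
      rfl
    rw [h6, h2] at h5
    exact hu h5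
  have hσ1 : σ = 1 := MulEquiv.ext hall
  rw [hσ1, orderOf_one] at hord'
  omega

end U

end V

end Main

end Cfsg.Agent.Lib.TwoFusion.ThreeInv
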